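import Cfsg.Agent.H6.ParabolicCard

/-! Degrees of the alternating flag characters of `GL n`. -/

set_option autoImplicit false
open scoped MatrixGroups Matrix
open Finset Polynomial

namespace Cfsg.Agent.H6

/-- The `q`-integer. -/
def qint (q r : ℕ) : ℕ := ∑ l ∈ range r, q ^ l

theorem qint_add (q s t : ℕ) : qint q (s + t) = qint q s + q ^ s * qint q t := by
  rw [qint, sum_range_add, qint, qint, mul_sum]
  simp only [pow_add]

theorem qfact_succ (q m : ℕ) : qfact q (m + 1) = qfact q m * qint q (m + 1) := by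
  rw [qfact, prod_range_succ]
  rfl

theorem qint_pos (q r : ℕ) : 0 < qint q (r + 1) := by
  rw [qint, sum_range_succ']
  simp

theorem qfact_pos (q m : ℕ) : 0 < qfact q m := by
  induction m with
  | zero => simp [qfact]
  | succ m ih => rw [qfact_succ]; exact Nat.mul_pos ih (qint_pos q m)

theorem qint_strictMono (q : ℕ) (hq : 0 < q) : StrictMono (qint q) := by
  apply strictMono_nat_of_lt_succ
  intro r
  rw [qint, qint, sum_range_succ]
  have := Nat.pow_pos (n := r) hq
  omega

theorem prod_qint_sub (q l k : ℕ) (hk : k ≤ l) :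
    (∏ s ∈ range k, ((qint q l : ℂ) - qint q s)) * (qfact q (l - k) : ℂ) =
      (q : ℂ) ^ (∑ s ∈ range k, s) * qfact q l := by
  induction k with
  | zero => simp
  | succ k ih =>
    have h1 : l - k = (l - (k + 1)) + 1 := by omega
    have h2 : (qint q l : ℂ) - qint q k = (q : ℂ) ^ k * qint q (l - k) := by
      have := qint_add q k (l - k)
      rw [Nat.add_sub_cancel' (by omega)] at this
      rw [this]
      push_cast
      ring
    have h3 := ih (by omega)
    rw [h1, qfact_succ, ← h1] at h3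
    push_cast at h3
    rw [prod_range_succ, sum_range_succ, pow_add, h2]
    linear_combination (q : ℂ) ^ k * h3

theorem sum_sum_range (n : ℕ) : ∑ k ∈ range n, ∑ s ∈ range k, s = n * (n - 1) * (n - 2) / 6 := by
  have h : 6 * ∑ k ∈ range n, ∑ s ∈ range k, s = n * (n - 1) * (n - 2) := by
    induction n with
    | zero => simp
    | succ n ih =>
      rw [sum_range_succ, mul_add, ih]
      have h2 := two_mul_sum_range n
      rcases n with _ | _ | n
      · simp
      · simp
      · simp only [Nat.add_sub_cancel, show n + 1 + 1 - 2 = n by omega,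
          show n + 1 + 1 + 1 - 2 = n + 1 by omega] at *
        nlinarith
  omega

theorem fixedPointCharacter_one {G : Type*} [Group G] (H : Subgroup G) :
    fixedPointCharacter H 1 = (Nat.card (G ⧸ H) : ℂ) := by
  rw [fixedPointCharacter, MulAction.fixedBy_one_eq_univ, Nat.card_univ]

theorem unipotentCharacterGL_one {F : Type*} [Field F] [Fintype F] {n : ℕ} (ν : Fin n → ℕ)
    (hsum : ∑ i, ν i = n) :
    unipotentCharacterGL n F ν 1 * (Fintype.card F : ℂ) ^ (n * (n - 1) * (n - 2) / 6) *
        ∏ i : Fin n, (qfact (Fintype.card F) (ν i + i.val) : ℂ) =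
      (qfact (Fintype.card F) n : ℂ) * ∏ i : Fin n, ∏ j ∈ Ioi i,
        ((qint (Fintype.card F) (ν j + j.val) : ℂ) - qint (Fintype.card F) (ν i + i.val)) := by
  set q := Fintype.card F with hq
  rw [← Matrix.det_vandermonde (fun i : Fin n => (qint q (ν i + i.val) : ℂ)),
    Matrix.det_eval_matrixOfPolynomials_eq_det_vandermonde _
      (fun k : Fin n => ∏ s ∈ range k, (X - C (qint q s : ℂ)))
      (fun k => by rw [natDegree_prod_of_monic _ _ (fun s _ => monic_X_sub_C _)]; simp only [natDegree_X_sub_C]; simp)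
      (fun k => monic_prod_of_monic _ _ (fun s _ => monic_X_sub_C _)),
    ← Matrix.det_transpose, Matrix.det_apply, unipotentCharacterGL, sum_mul, sum_mul, mul_sum]
  refine sum_congr rfl fun κ _ => ?_
  simp only [Matrix.transpose_apply, Matrix.of_apply, eval_prod, eval_sub, eval_X, eval_C]
  split_ifs with h
  · have h1 := index_parabolicGL (F := F) _ (sum_shift_eq ν hsum κ h)
    have h2 := congrArg (Nat.cast : ℕ → ℂ) h1
    push_cast at h2
    rw [fixedPointCharacter_one, ← hq] at *
    rw [← h2, Units.smul_def, zsmul_eq_mul, ← sum_sum_range,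
      ← Fin.sum_univ_eq_sum_range (fun k => ∑ s ∈ range k, s),
      ← Equiv.sum_comp κ (fun k : Fin n => ∑ s ∈ range k, s), ← prod_pow_eq_pow_sum]
    have h3 : (∏ i : Fin n, (q : ℂ) ^ (∑ s ∈ range (κ i), s)) *
        ∏ i : Fin n, (qfact q (ν i + i.val) : ℂ) =
        (∏ i : Fin n, (qfact q (ν i + i.val - κ i) : ℂ)) *
          ∏ i : Fin n, ∏ s ∈ range (κ i), ((qint q (ν i + i.val) : ℂ) - qint q s) := by
      rw [← prod_mul_distrib, ← prod_mul_distrib]
      refine prod_congr rfl fun i _ => ?_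
      rw [← prod_qint_sub q _ _ (h i), mul_comm]
    linear_combination (((Equiv.Perm.sign κ : ℤˣ) : ℤ) : ℂ) *
      (Nat.card (GL (Fin n) F ⧸ parabolicGL n F fun i => ν i + i.val - κ i) : ℂ) * h3
  · push Not at h
    obtain ⟨i, hi⟩ := h
    have : ∏ i : Fin n, ∏ s ∈ range (κ i), ((qint q (ν i + i.val) : ℂ) - qint q s) = 0 :=
      prod_eq_zero (mem_univ i) (prod_eq_zero (mem_range.2 hi) (sub_self _))
    rw [this]
    simp

theorem unipotentCharacterGL_one_pos {F : Type*} [Field F] [Fintype F] {n : ℕ} (ν : Fin n → ℕ)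
    (hmono : Monotone ν) (hsum : ∑ i, ν i = n) :
    ∃ r : ℝ, 0 < r ∧ unipotentCharacterGL n F ν 1 = r := by
  have h := unipotentCharacterGL_one (F := F) ν hsum
  set q := Fintype.card F with hq
  have hq0 : 0 < q := Fintype.card_pos
  have hA : (0 : ℝ) < (q : ℝ) ^ (n * (n - 1) * (n - 2) / 6) *
      ∏ i : Fin n, (qfact q (ν i + i.val) : ℝ) :=
    mul_pos (pow_pos (Nat.cast_pos.2 hq0) _)
      (prod_pos fun i _ => Nat.cast_pos.2 (qfact_pos _ _))
  refine ⟨((qfact q n : ℝ) * ∏ i : Fin n, ∏ j ∈ Ioi i,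
    ((qint q (ν j + j.val) : ℝ) - qint q (ν i + i.val))) /
      ((q : ℝ) ^ (n * (n - 1) * (n - 2) / 6) * ∏ i : Fin n, (qfact q (ν i + i.val) : ℝ)), ?_, ?_⟩
  · refine div_pos (mul_pos (Nat.cast_pos.2 (qfact_pos _ _))
      (prod_pos fun i _ => prod_pos fun j hj => ?_)) hA
    rw [sub_pos, Nat.cast_lt]
    exact qint_strictMono q hq0 (strictMono_shift ν hmono (mem_Ioi.1 hj))
  · have hA' : (((q : ℝ) ^ (n * (n - 1) * (n - 2) / 6) *
      ∏ i : Fin n, (qfact q (ν i + i.val) : ℝ) : ℝ) : ℂ) ≠ 0 := Complex.ofReal_ne_zero.2 hA.ne'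
    rw [Complex.ofReal_div, eq_div_iff hA']
    push_cast
    rw [← h]
    ring

end Cfsg.Agent.H6
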