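import Cfsg.Agent.H6.COrth3
import Mathlib.Algebra.QuadraticAlgebra.Basic

/-! The orthogonal groups of minus type. -/

set_option autoImplicit false

open scoped commutatorElement

namespace Cfsg.Agent.H6

open OF Subgroup Frame Module

section Plane

variable {K V I G : Type*} [Field K] [AddCommGroup V] [Module K V] [Group G]
  {Q : QuadraticForm K V} {F : Frame (ofQ Q) I}

/-- The Eichler transformation of an orthogonal group. -/
noncomputable def Frame.TQ (F : Frame (ofQ Q) I) (k : I) (v : V) : (ofQ Q).U :=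
  (ofQ Q).T (F.e k) v (-Q v)

theorem TQ_smul {k : I} {v : V} (hv : F.V0 v) (x : V) :
    F.TQ k v • x = x + pb Q x (F.e k) • v + (-Q v * pb Q x (F.e k) - pb Q x v) • F.e k := by
  rw [TQ, (hv.ok rfl k).T_smul, ofQ_η, one_mul]; rfl

theorem V0_smul {v : V} (hv : F.V0 v) (c : K) : F.V0 (c • v) := fun i => by simp [hv i]

theorem TQ_add {k : I} {v w : V} (hv : F.V0 v) (hw : F.V0 w) :
    F.TQ k (v + w) = F.TQ k v * F.TQ k w := by
  rw [TQ, TQ, TQ, (hv.ok rfl k).T_mul (hw.ok rfl k).toOk, Q_add, ofQ_η, ofQ_B, pb_comm Q w]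
  congr 1; ring

theorem TQ_conj {k k' : I} {v : V} (hv : F.V0 v) {g : (ofQ Q).U} {c : K} (hc : c ≠ 0)
    (hg : g • F.e k = c • F.e k') : g * F.TQ k v * g⁻¹ = F.TQ k' (c • g • v) := by
  rw [TQ, (hv.ok rfl k).conj_T' hc hg, TQ, Q_smul, Q_U, ofQ_σ]
  congr 1; ring

theorem TQ_w (hε : ∀ i, F.ε i = 1) (k : I) {v : V} (hv : F.V0 v) (h0 : Q v ≠ 0) {w : (ofQ Q).U}
    (hw : w = F.TQ k v * F.TQ (F.n k) ((Q v)⁻¹ • v) * F.TQ k v) :
    w • F.e k = (-(Q v)⁻¹) • F.e (F.n k) ∧ w • F.e (F.n k) = (-Q v) • F.e k ∧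
      (∀ i, F.D k i → w • F.e i = F.e i) ∧ ∀ u, F.V0 u → w • u = u - (pb Q u v / Q v) • v := by
  have e1 : ∀ i, pb Q (F.e i) (F.e i) = 0 := F.B_ee
  have e2 : pb Q (F.e k) (F.e (F.n k)) = 1 := (F.B_n' k).trans (hε _)
  have e3 : pb Q (F.e (F.n k)) (F.e k) = 1 := hε k
  have e4 : ∀ i, pb Q v (F.e i) = 0 := hv
  have e5 : ∀ i, pb Q (F.e i) v = 0 := fun i => (pb_comm _ _ _).trans (hv i)
  have e6 := pb_self Q v
  have hv' := V0_smul hv (Q v)⁻¹
  subst hw
  refine ⟨?_, ?_, fun i hi => ?_, fun u hu => ?_⟩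
  · simp only [mul_smul, TQ_smul hv, TQ_smul hv', map_add, map_smul, LinearMap.add_apply,
      LinearMap.smul_apply, smul_eq_mul, e1, e2, e3, e4, e5, e6, Q_smul]
    match_scalars <;> field_simp <;> ring
  · simp only [mul_smul, TQ_smul hv, TQ_smul hv', map_add, map_smul, LinearMap.add_apply,
      LinearMap.smul_apply, smul_eq_mul, e1, e2, e3, e4, e5, e6, Q_smul]
    match_scalars <;> field_simp <;> ring
  · simp [mul_smul, TQ_smul hv, TQ_smul hv', e5, show pb Q (F.e i) (F.e k) = 0 from hi.symm.B,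
      show pb Q (F.e i) (F.e (F.n k)) = 0 from hi.symm.nr.B]
  · simp only [mul_smul, TQ_smul hv, TQ_smul hv', map_add, map_smul, LinearMap.add_apply,
      LinearMap.smul_apply, smul_eq_mul, e1, e2, e3, e4, e5, e6, Q_smul,
      show ∀ i, pb Q u (F.e i) = 0 from hu]
    match_scalars <;> field_simp <;> ring

/-- An identification of the anisotropic part with a quadratic extension. -/
structure Plane (F : Frame (ofQ Q) I) (L : Type*) [Field L] [Algebra K L] where
  τ : L →ₐ[K] L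
  φ : L →ₗ[K] V
  ττ : ∀ t, τ (τ t) = t
  ne : ∃ t, τ t ≠ t
  V0 : ∀ t, F.V0 (φ t)
  surj : ∀ u, F.V0 u → ∃ t, u = φ t
  N : ∀ t, algebraMap K L (Q (φ t)) = t * τ t
  ε : ∀ i, F.ε i = 1

namespace Plane

variable {L : Type*} [Field L] [Algebra K L] (P : Plane F L)

theorem τ_ne {t : L} (ht : t ≠ 0) : P.τ t ≠ 0 := (map_ne_zero P.τ).mpr ht

theorem N_ne {t : L} (ht : t ≠ 0) : Q (P.φ t) ≠ 0 := fun h =>
  mul_ne_zero ht (P.τ_ne ht) (by rw [← P.N, h, map_zero])

theorem inj : Function.Injective P.φ := (injective_iff_map_eq_zero _).mpr fun t h =>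
  by_contra fun h0 => P.N_ne h0 (by rw [h, map_zero])

theorem N_τ (t : L) : Q (P.φ (-P.τ t)) = Q (P.φ t) :=
  (algebraMap K L).injective (by rw [P.N, P.N]; simp [P.ττ, mul_comm])

theorem w_act (b : I) {t : L} (ht : t ≠ 0) {w : (ofQ Q).U}
    (hw : w = stW (fun s => F.TQ (F.n b) (P.φ (-P.τ s))) (fun s => F.TQ b (P.φ s)) t) :
    w • F.e (F.n b) = (-(Q (P.φ t))⁻¹) • F.e b ∧ w • F.e b = (-Q (P.φ t)) • F.e (F.n b) ∧
      (∀ i, F.D b i → w • F.e i = F.e i) ∧ ∀ s, w • P.φ s = P.φ (-(P.τ s * P.τ t / t)) := by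
  have h1 := P.τ_ne ht
  obtain ⟨e1, e2, e3, e4⟩ := TQ_w P.ε (F.n b) (P.V0 (-P.τ t)) (by rw [P.N_τ]; exact P.N_ne ht)
    (w := w) (by
      rw [hw, stW, F.nn, P.N_τ, ← map_smul, Algebra.smul_def, map_inv₀, P.N]
      congr 4; field_simp)
  rw [F.nn, P.N_τ] at e1 e2
  refine ⟨e1, e2, fun i hi => e3 i hi.nl, fun s => ?_⟩
  rw [e4 _ (P.V0 s), ← map_smul, ← map_sub, pb_def, ← map_add, Algebra.smul_def]
  congr 1
  simp only [map_div₀, map_sub, P.N]
  simp only [map_add, map_neg, P.ττ]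
  field_simp; ring

theorem isR1 (b : I) :
    IsR1 (fun s => F.TQ (F.n b) (P.φ (-P.τ s))) (fun s => F.TQ b (P.φ s)) where
  addx s t := by rw [← TQ_add (P.V0 _) (P.V0 _), map_add, neg_add, map_add]
  addy s t := by rw [← TQ_add (P.V0 _) (P.V0 _), map_add]
  wx t ht u := by
    have h1 := P.τ_ne ht
    obtain ⟨e1, -, -, e4⟩ := P.w_act b ht rfl
    rw [TQ_conj (P.V0 _) (by simpa using P.N_ne ht) e1, e4, ← map_smul, Algebra.smul_def]
    congr 2
    simp only [map_neg, map_inv₀, P.N, P.ττ]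
    field_simp

theorem exists_h [Finite K] [Finite L] [Finite I] {π : G →* (ofQ Q).U} (S : CSt F π) {a b : I}
    (hab : F.D a b) : ∃ h : L → G, (∀ t, h t ∈ S.L Set.univ) ∧
      (∀ s t, s ≠ 0 → t ≠ 0 → h (s * t) = h s * h t) ∧ h 1 = 1 ∧ h (-1) = S.k a b (-1) ∧
      (∀ t, t * P.τ t = 1 → (∀ i, π (h t) • F.e i = F.e i) ∧ ∀ s, π (h t) • P.φ s = P.φ (s / t ^ 2)) ∧
      ∀ g ∈ S.L Set.univ, (∀ i, π g • F.e i = F.e i) → ∃ t, t * P.τ t = 1 ∧ g = h t := by
  choose x hx hx' using fun t => S.Y_surj b (P.V0 t) rfl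
  choose y hy hy' using fun t => S.Y_surj (F.n b) (P.V0 (-P.τ t)) rfl
  have m1 : (-1 : L) ≠ 0 := by simp
  have hu := neg_ne_zero.mpr (P.N_ne one_ne_zero)
  have hN := nd_of (P.V0 1) rfl hu
  have ew : ∀ t, π (stW y x t) =
      stW (fun s => F.TQ (F.n b) (P.φ (-P.τ s))) (fun s => F.TQ b (P.φ s)) t := fun t => by
    simp only [stW, map_mul, hx', hy', TQ]
  obtain ⟨H, hk⟩ := CSt.ker_r1 (fun y n h => h.mon hab) hx hy (fun g hg => by
      obtain ⟨u, _, h1, rfl, h2⟩ := CSt.Y_img hg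
      obtain ⟨t, rfl⟩ := P.surj u h1
      exact ⟨t, S.ext hg.1 (hx t).1 (h2.trans (hx' t).symm)⟩)
    (by simpa only [hx', hy', TQ] using (P.isR1 b).symm)
    fun t ht => ⟨⟨_, (P.w_act b ht (ew t)).2.1⟩, _, (P.w_act b ht (ew t)).1⟩
  have hw : ∀ t, stW y x t ∈ S.L Set.univ := fun t =>
    mul_mem (mul_mem (CSt.mem_Lu (hy _).1) (CSt.mem_Lu (hx _).1)) (CSt.mem_Lu (hy _).1)
  obtain ⟨f1, f2, f3, f4⟩ := P.w_act b m1 (ew (-1))
  have q1 : Q (P.φ (-1)) = 1 := (algebraMap K L).injective (by rw [P.N]; simp)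
  have eb : ∀ t, t ≠ 0 → π (stH y x t) • F.e b = (Q (P.φ t))⁻¹ • F.e b := fun t ht => by
    rw [stH, map_mul, mul_smul, f2, q1, U_smul, (P.w_act b ht (ew t)).1]; simp
  refine ⟨stH y x, fun t => mul_mem (hw _) (hw _), fun s t hs ht => H.symm.h_mul hs ht, H.symm.h_one, ?_,
    fun t ht => ?_, fun g hg h => ?_⟩
  · have h1 : S.IsN b (x 1) (stW y x (-1)) :=
      ⟨hx _, ⟨_, hy (-1), _, hy (-1), by simp [stW]⟩, ⟨_, f2⟩, _, f1⟩
    have m2 : (-1 : K) ≠ 0 := by simp
    have h2 := h1.conj (CSt.mon_h hN hab m2)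
    rw [CSt.h_conj_Y hN hab (hx 1) (inv_mem (hx 1)) (P.V0 1) rfl m2 (hx' 1) (by
      rw [map_inv, hx', ((P.V0 1).ok rfl b).T_inv]; simp [ofQ_σ, ofQ_η])] at h2
    rw [← h1.k_eq hN hab m2, h2.unique h1.inv, ← mul_inv_rev, ← stH, ← H.symm.h_inv m1]
    simp
  · have h0 := left_ne_zero_of_mul_eq_one ht
    obtain ⟨e1, e2, e3, e4⟩ := P.w_act b h0 (ew t)
    have q2 : Q (P.φ t) = 1 := (algebraMap K L).injective (by rw [P.N, ht, map_one])
    refine ⟨fun i => ?_, fun s => ?_⟩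
    · rcases cases3 (F := F) b i with rfl | rfl | e
      · simp [eb t h0, q2]
      · rw [stH, map_mul, mul_smul, f1, q1, U_smul, e2, q2]; simp
      · rw [stH, map_mul, mul_smul, f3 i e, e3 i e]
    · rw [stH, map_mul, mul_smul, f4, e4, eq_inv_of_mul_eq_one_right ht]
      congr 1
      simp [P.ττ]; field_simp
  · obtain ⟨t, ht, rfl⟩ := hk g (CSt.mem_L_pair hN hab (P.V0 1) hu rfl hg fun i _ => h i) 1 1
      (by simp [h]) (by simp [h])
    refine ⟨t, ?_, rfl⟩
    rw [← P.N, inv_eq_one.mp (F.eq_one_of_smul ((eb t ht).symm.trans (h b))), map_one]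

theorem exists_rot : ∃ t, t * P.τ t = 1 ∧ t ^ 2 ≠ 1 := by
  obtain ⟨s, h1, h2⟩ : ∃ s, P.τ s ≠ s ∧ P.τ s ≠ -s := by
    obtain ⟨s, hs⟩ := P.ne
    by_cases h : P.τ s = -s
    · refine ⟨s + 1, by simpa, fun e => hs ?_⟩
      rw [map_add, map_one, h] at e
      linear_combination h - s * e
    · exact ⟨s, hs, h⟩
  have h0 : s ≠ 0 := by rintro rfl; simp at h1
  have := P.τ_ne h0
  refine ⟨s / P.τ s, by rw [map_div₀, P.ττ]; field_simp, fun e => ?_⟩
  rw [div_pow, div_eq_one_iff_eq (pow_ne_zero 2 this), eq_comm, sq_eq_sq_iff_eq_or_eq_neg] at e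
  tauto

theorem exists_i [Finite K] (h2 : (2 : K) ≠ 0) (h : ¬ IsSquare (-1 : K)) :
    ∃ t, t * P.τ t = 1 ∧ t * t = -1 := by
  obtain ⟨s, h0, h1⟩ : ∃ s, s ≠ 0 ∧ P.τ s = -s := by
    obtain ⟨s, hs⟩ := P.ne
    exact ⟨s - P.τ s, sub_ne_zero.mpr hs.symm, by simp [P.ττ]⟩
  have h3 := P.N s
  obtain ⟨r, hr, e⟩ := IsR1.exists_sq_mul_of_nonsquare h (t := -Q (P.φ s)) fun ⟨r, hr⟩ => by
    have h4 : P.τ s = s := by
      rcases mul_self_eq_mul_self_iff.mp (show s * s = algebraMap K L r * algebraMap K L r by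
        rw [← map_mul, ← hr, map_neg, h3, h1]; ring) with e | e <;> simp [e]
    have h5 : algebraMap K L 2 * s = 0 := by rw [map_ofNat]; linear_combination h1 - h4
    simp [h0, h2] at h5
  have h4 := (map_ne_zero (algebraMap K L)).mpr hr
  rw [show Q (P.φ s) = r ^ 2 by linear_combination -e, h1, map_pow] at h3
  refine ⟨s / algebraMap K L r, ?_, ?_⟩
  · rw [map_div₀, h1, AlgHom.commutes]; field_simp; linear_combination -h3
  · field_simp; linear_combination h3

end Plane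

end Plane

universe u

variable (m : ℕ) {K : Type u} [Field K] {a b : K}
  (hab : ∀ z₁ z₂ : K, z₁ ^ 2 + a * z₁ * z₂ + b * z₂ ^ 2 = 0 → z₁ = 0 ∧ z₂ = 0)

theorem fMinus_aux {u : (Fin m ⊕ Fin m) ⊕ Fin 2 → K}
    (h : ∀ i, pb (qMinus m K a b) u (Pi.single (.inl i) 1) = 0) (i : Fin m ⊕ Fin m) :
    u (.inl i) = 0 := by
  rcases i with i | i
  · simpa [pb_qMinus, Pi.single_apply] using h (.inr i)
  · simpa [pb_qMinus, Pi.single_apply] using h (.inl i)

/-- The standard frame of the minus type form. -/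
def fMinus : Frame (ofQ (qMinus m K a b)) (Fin m ⊕ Fin m) where
  n := Sum.swap
  e i := Pi.single (.inl i) 1
  nn := Sum.swap_swap
  n_ne := by rintro (i | i) <;> simp
  sing := by rintro (i | i) <;> simp [ofQ_Λ, qMinus_apply]
  orth := by
    clear hab
    rintro (i | i) (j | j) h <;> simp_all [ofQ_B, pb_qMinus, Pi.single_apply, eq_comm]
  pair := by rintro (i | i) <;> simp [ofQ_B, pb_qMinus, Pi.single_apply]
  aniso u h h' := by
    have h1 := fMinus_aux m h
    obtain ⟨h2, h3⟩ := hab (u (.inr 0)) (u (.inr 1)) (by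
      simpa [qMinus_apply, h1] using neg_eq_zero.mp h'.symm)
    funext i
    rcases i with i | i
    · exact h1 i
    · fin_cases i
      exacts [h2, h3]

include hab in
theorem fact_aniso : Fact (∀ r : K, r ^ 2 ≠ -b + a * r) :=
  ⟨fun r h => by simpa using (hab r (-1) (by linear_combination h)).2⟩

/-- The anisotropic plane of the minus type form. -/
def pMinus [Finite K] [Fact (∀ r : K, r ^ 2 ≠ -b + a * r)] :
    Plane (fMinus m hab) (QuadraticAlgebra K (-b) a) where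
  τ := { starRingEnd _ with commutes' := fun c => by ext <;> simp [starRingEnd_apply] }
  φ :=
    { toFun t := Sum.elim 0 ![t.re, t.im]
      map_add' s t := by
        funext i; rcases i with i | i
        · simp
        · fin_cases i <;> simp
      map_smul' s t := by
        funext i; rcases i with i | i
        · simp
        · fin_cases i <;> simp }
  ττ := star_star
  ne := ⟨QuadraticAlgebra.omega, fun h => by
    have h1 : (0 : K) + a * 1 = 0 := congrArg QuadraticAlgebra.re h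
    have h2 : (-1 : K) = 1 := congrArg QuadraticAlgebra.im h
    exact disc_ne_zero_of_aniso K hab (by linear_combination a * h1 + 2 * b * h2)⟩
  V0 := by rintro t (i | i) <;> simp [fMinus, ofQ_B, pb_qMinus]
  surj u hu := ⟨⟨u (.inr 0), u (.inr 1)⟩, funext fun i => by
    rcases i with i | i
    · exact fMinus_aux m hu i
    · fin_cases i <;> rfl⟩
  N t := by
    refine Eq.trans ?_ (QuadraticAlgebra.algebraMap_norm_eq_mul_star t)
    simp [qMinus_apply, QuadraticAlgebra.norm_def, sq, mul_assoc]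
  ε := by rintro (i | i) <;> simp [Frame.ε, fMinus, ofQ_B, pb_qMinus, Pi.single_apply]

variable [Fintype K]

theorem orthHyp_minus (hm : 3 ≤ m) {i j : Fin m ⊕ Fin m} (hij : (fMinus m hab).D i j) :
    OrthHyp (fMinus m hab) i j (jOmega (qMinus m K a b)) := by
  have := fact_aniso hab
  have : Finite (QuadraticAlgebra K (-b) a) :=
    Finite.of_equiv _ (QuadraticAlgebra.equivProd _ _).symm
  let P := pMinus m hab
  have h3 : ∀ a b, ∃ c, (fMinus m hab).D a c ∧ (fMinus m hab).D b c := fun a b => by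
    simpa using (fMinus m hab).exists_D rfl [a, b] (by simp; omega)
  have hB := qMinus_nondeg m K hab
  refine ⟨hB, h3, hij, jOmega_inj _, (jOmega_range _).trans
    (ofQ_E_eq hB (bigEnough_of_card (by simp; omega)) h3 i).symm,
    fun G _ π S g hg h => ?_, fun Γ _ π H => H.exists_cst_sym ofQ_σ ofQ_η h3 (nd_of_three h3)
      (P.V0 1) rfl (neg_ne_zero.mpr (P.N_ne one_ne_zero)) (Or.inr ⟨?_, Or.inr ⟨?_, ?_⟩⟩)⟩
  · obtain ⟨f, -, -, f1, f2, f3, f4⟩ := P.exists_h S hij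
    obtain ⟨t, ht, rfl⟩ := f4 g hg fun i => by simp [h]
    have := (f3 t ht).2 1
    rw [h, one_smul, one_div, P.inj.eq_iff, eq_comm, inv_eq_one, sq_eq_one_iff] at this
    rcases this with rfl | rfl
    exacts [Or.inl f1, Or.inr f2]
  · by_contra hc
    push Not at hc
    refine P.N_ne one_ne_zero (by
      rw [hB.1 (P.φ 1) (V_induction (F := fMinus m hab) (P.V0 1) (fun u hu => hc _ _ hu (P.V0 1))
        (fun x y hx hy => by simp [hx, hy]) fun c x hx => by simp [hx]), map_zero])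
  · intro α hα
    simpa [ofQ_Λ] using hα
  · obtain ⟨f, f0, -, -, -, f3, -⟩ := P.exists_h (fMinus m hab).std hij
    obtain ⟨t, ht, ht'⟩ := P.exists_rot
    have h0 := left_ne_zero_of_mul_eq_one ht
    refine ⟨f t, f0 t, (f3 t ht).1, fun u hu => ?_⟩
    obtain ⟨s, rfl⟩ := P.surj u hu
    refine ⟨_, P.V0 (s * t ^ 2 / (1 - t ^ 2)), ?_⟩
    have := sub_ne_zero.mpr ht'.symm
    rw [show f t • _ = _ from (f3 t ht).2 _, ← map_sub]
    congr 1; field_simp

include hab in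
theorem schur_minus (hm : 3 ≤ m) : HasCyclicSchurMultiplier (POmega K (qMinus m K a b))
    (Nat.gcd 4 (Fintype.card K ^ (m + 1) + 1)) := by
  classical
  obtain ⟨j, hj⟩ := (fMinus m hab).exists_D rfl [.inl ⟨0, by omega⟩] (by simp; omega)
  replace hj := hj _ (List.mem_singleton_self _)
  have H := orthHyp_minus m hab hm hj
  have hN := nd_of_three H.h3
  by_cases h2 : (2 : K) = 0
  · have : CharP K 2 := CharTwo.of_one_ne_zero_of_two_eq_zero one_ne_zero h2
    have h1 : 2 ^ 2 ∣ Fintype.card K ^ (m + 1) := (pow_dvd_pow_of_dvd (Nat.dvd_of_mod_eq_zero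
      (FiniteField.even_card_of_char_two (ringChar.eq K 2))) 2).trans (pow_dvd_pow _ (by omega))
    rw [Nat.gcd_rec, show (Fintype.card K ^ (m + 1) + 1) % 4 = 1 by omega]
    exact H.schur_one h2 (Multiplicative (ZMod 1))
  have h1 := FiniteField.odd_card_of_char_ne_two (ringChar_ne_two h2)
  by_cases h4 : Fintype.card K % 4 = 3 ∧ Even m
  · have h3 := pow_mod_four h4.2.add_one h1
    rw [Nat.gcd_rec, show (Fintype.card K ^ (m + 1) + 1) % 4 = 0 by omega]
    refine H.schur_four h2 fun G _ π S => ?_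
    have := fact_aniso hab
    have : Finite (QuadraticAlgebra K (-b) a) :=
      Finite.of_equiv _ (QuadraticAlgebra.equivProd _ _).symm
    let P := pMinus m hab
    obtain ⟨f, -, f0, -, f2, f3, -⟩ := P.exists_h S hj
    obtain ⟨t, ht, ht'⟩ := P.exists_i h2 (by simp [FiniteField.isSquare_neg_one_iff, h4.1])
    have h0 := left_ne_zero_of_mul_eq_one ht
    obtain ⟨r, hr⟩ := h4.2
    obtain ⟨c, -, -, c1, c2, -, c3⟩ := S.exists_neg hN r Finset.univ (by simp) (by simp; omega)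
    refine ⟨c, f t, c1, by rw [← f0 t t h0 h0, ht', f2], V_induction (F := fMinus m hab)
      (fun i => ?_) (fun u hu => ?_) (fun x y hx hy => by rw [U_add, hx, hy, neg_add])
      fun c x hx => by rw [U_smul, hx, smul_neg]⟩
    · rw [map_mul, mul_smul, (f3 t ht).1, c2 i (by simp)]
    · obtain ⟨s, rfl⟩ := P.surj u hu
      rw [map_mul, mul_smul, (f3 t ht).2, c3 _ (P.V0 _), sq, ht', div_neg, div_one, map_neg]
  have h5 : quadraticChar K (-1) ^ (m + 1) = 1 ∧ Fintype.card K ^ (m + 1) % 4 = 1 := by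
    by_cases h6 : Fintype.card K % 4 = 3
    · obtain ⟨r, hr⟩ : Even (m + 1) := (Nat.not_even_iff_odd.mp fun h => h4 ⟨h6, h⟩).add_one
      rw [hr, ← two_mul, pow_mul, pow_mul, quadraticChar_sq_one (by simp), Nat.pow_mod,
        Nat.pow_mod _ 2, h6]
      simp
    · rw [(quadraticChar_one_iff_isSquare (by simp)).mpr (FiniteField.isSquare_neg_one_iff.mpr h6),
        Nat.pow_mod, show Fintype.card K % 4 = 1 by omega]
      simp
  rw [Nat.gcd_rec, show (Fintype.card K ^ (m + 1) + 1) % 4 = 2 by omega]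
  refine H.schur_two h2 fun x hx => ?_
  have h := (jOmega_neg (qMinus_nondeg m K hab) (bigEnough_of_card (by simp; omega)) hx).2
  rw [theta_neg_qMinus h2 m (by omega) hab, h5.1] at h
  omega

end Cfsg.Agent.H6
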