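import Cfsg.Agent.H1.CharInd

/-! Induction of functions extended by zero, and a Mackey-type summation formula. -/

set_option autoImplicit false
open Finset
open scoped ComplexConjugate

namespace Cfsg.Agent.H6.HC

open Cfsg Cfsg.Agent.H1

variable {G : Type*} [Group G] [Fintype G]

/-- Induction of a function supported on `H`. -/
noncomputable def ind (H : Subgroup G) (f : G → ℂ) : G → ℂ :=
  fun g => (Nat.card H : ℂ)⁻¹ * ∑ x : G, f (x⁻¹ * g * x)

theorem sum_conj (f : G → ℂ) (y : G) : ∑ g, f (y⁻¹ * g * y) = ∑ g, f g :=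
  Fintype.sum_equiv (MulAut.conj y⁻¹).toEquiv _ _ (by simp)

theorem sum_mul_right (f : G → ℂ) (y : G) : ∑ g, f (g * y) = ∑ g, f g :=
  Fintype.sum_equiv (Equiv.mulRight y) _ _ (by simp)

theorem sum_mul_left (f : G → ℂ) (y : G) : ∑ g, f (y * g) = ∑ g, f g :=
  Fintype.sum_equiv (Equiv.mulLeft y) _ _ (by simp)

theorem ind_eq_indFun (H : Subgroup G) {f : G → ℂ} (hf : ∀ g, g ∉ H → f g = 0) :
    ind H f = indFun H (fun h => f h) := by
  funext g
  simp only [ind, indFun]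
  congr 1
  refine sum_congr rfl fun x _ => ?_
  by_cases hx : x⁻¹ * g * x ∈ H
  · rw [extendByZero_of_mem H _ hx]
  · rw [extendByZero_of_not_mem H _ hx, hf _ hx]

theorem isClass_ind (H : Subgroup G) (f : G → ℂ) : IsClassFunction G (ind H f) := by
  intro g y
  simp only [ind]
  congr 1
  rw [← sum_mul_left (fun x => f (x⁻¹ * (y * g * y⁻¹) * x)) y]
  exact sum_congr rfl fun x _ => by congr 1; group

theorem isCharacter_ind (H : Subgroup G) {f : G → ℂ} (hf : ∀ g, g ∉ H → f g = 0)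
    (h : IsCharacter H (fun h => f h)) : IsCharacter G (ind H f) := by
  rw [ind_eq_indFun H hf]
  exact IsCharacter.indFun H h

omit [Fintype G] in
theorem class_conj {φ : G → ℂ} (hφ : IsClassFunction G φ) (g x : G) : φ (x⁻¹ * g * x) = φ g := by
  simpa using hφ g x⁻¹

theorem inner_ind_left (H : Subgroup G) (f : G → ℂ) {φ : G → ℂ} (hφ : IsClassFunction G φ) :
    classInner (ind H f) φ = (Nat.card H : ℂ)⁻¹ * ∑ g, f g * conj (φ g) := by
  have hG : (Nat.card G : ℂ) ≠ 0 := card_ne_zero'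
  simp only [classInner, ind]
  have : ∀ x : G, ∑ g, f (x⁻¹ * g * x) * conj (φ g) = ∑ g, f g * conj (φ g) := by
    intro x
    rw [← sum_conj (fun g => f g * conj (φ g)) x]
    exact sum_congr rfl fun g _ => by rw [class_conj hφ]
  simp only [mul_assoc, ← mul_sum, sum_mul]
  rw [sum_comm]
  simp only [← mul_assoc, this, sum_const, card_univ, nsmul_eq_mul, ← Nat.card_eq_fintype_card]
  field_simp

theorem inner_ind_right (H : Subgroup G) (f : G → ℂ) {φ : G → ℂ} (hφ : IsClassFunction G φ) :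
    classInner φ (ind H f) = (Nat.card H : ℂ)⁻¹ * ∑ g, φ g * conj (f g) := by
  rw [← classInner_conj, inner_ind_left H f hφ]
  simp [map_sum, mul_comm]

/-- The Mackey term. -/
noncomputable def TT (f₁ f₂ : G → ℂ) (x : G) : ℂ := ∑ g, f₁ g * conj (f₂ (x⁻¹ * g * x))

theorem inner_ind_ind (H K : Subgroup G) (f₁ f₂ : G → ℂ) :
    classInner (ind H f₁) (ind K f₂) =
      (Nat.card H : ℂ)⁻¹ * (Nat.card K : ℂ)⁻¹ * ∑ x, TT f₁ f₂ x := by
  rw [inner_ind_left H f₁ (isClass_ind K f₂)]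
  simp only [ind, TT, map_mul, map_sum, map_inv₀, map_natCast, mul_sum]
  rw [sum_comm]
  exact sum_congr rfl fun x _ => sum_congr rfl fun g _ => by ring

theorem TT_mul {H K : Subgroup G} {f₁ f₂ : G → ℂ}
    (h₁ : ∀ h ∈ H, ∀ g, f₁ (h⁻¹ * g * h) = f₁ g) (h₂ : ∀ k ∈ K, ∀ g, f₂ (k⁻¹ * g * k) = f₂ g)
    {h k : G} (hh : h ∈ H) (hk : k ∈ K) (x : G) : TT f₁ f₂ (h * x * k) = TT f₁ f₂ x := by
  simp only [TT]
  rw [← sum_conj (fun g => f₁ g * conj (f₂ (x⁻¹ * g * x))) h]
  refine sum_congr rfl fun g _ => ?_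
  rw [h₁ h hh, ← h₂ k hk (x⁻¹ * (h⁻¹ * g * h) * x)]
  congr 3
  group

/-- The double coset relation. -/
def DC (H K : Subgroup G) (y x : G) : Prop := ∃ h ∈ H, ∃ k ∈ K, x = h * y * k

omit [Fintype G] in
theorem card_fiber_dc (H K : Subgroup G) {y x : G} (h : DC H K y x) :
    Nat.card {p : H × K // p.1.1 * y * p.2.1 = x} =
      Nat.card {g : G // g ∈ H ∧ y⁻¹ * g * y ∈ K} := by
  obtain ⟨h₀, hh, k₀, hk, rfl⟩ := h
  refine Nat.card_congr
    { toFun := fun p => ⟨h₀⁻¹ * p.1.1.1, mul_mem (inv_mem hh) p.1.1.2, by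
        have : y⁻¹ * (h₀⁻¹ * p.1.1.1) * y = k₀ * p.1.2.1⁻¹ := by
          have h := p.2
          calc y⁻¹ * (h₀⁻¹ * p.1.1.1) * y = y⁻¹ * h₀⁻¹ * (p.1.1.1 * y * p.1.2.1) * p.1.2.1⁻¹ := by group
            _ = _ := by rw [h]; group
        rw [this]
        exact mul_mem hk (inv_mem p.1.2.2)⟩
      invFun := fun g => ⟨(⟨h₀ * g.1, mul_mem hh g.2.1⟩, ⟨(y⁻¹ * g.1 * y)⁻¹ * k₀, mul_mem (inv_mem g.2.2) hk⟩), by
        simp only; group⟩
      left_inv := fun p => ?_
      right_inv := fun g => Subtype.ext (by simp) }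
  apply Subtype.ext
  refine Prod.ext (Subtype.ext (by simp)) (Subtype.ext ?_)
  have h := p.2
  simp only
  calc (y⁻¹ * (h₀⁻¹ * p.1.1.1) * y)⁻¹ * k₀ = (p.1.1.1 * y)⁻¹ * (h₀ * y * k₀) := by group
    _ = (p.1.1.1 * y)⁻¹ * (p.1.1.1 * y * p.1.2.1) := by rw [h]
    _ = _ := by group

theorem mackey_sum (H K : Subgroup G) (T : G → ℂ)
    (hT : ∀ h ∈ H, ∀ k ∈ K, ∀ x, T (h * x * k) = T x) {W : Type*} [Fintype W] (r : W → G)
    (hr : ∀ x, T x ≠ 0 → ∃! w, DC H K (r w) x) :
    (Nat.card H : ℂ)⁻¹ * (Nat.card K : ℂ)⁻¹ * ∑ x, T x =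
      ∑ w, (Nat.card {g : G // g ∈ H ∧ (r w)⁻¹ * g * r w ∈ K} : ℂ)⁻¹ * T (r w) := by
  classical
  have hH : (Nat.card H : ℂ) ≠ 0 := card_ne_zero'
  have hK : (Nat.card K : ℂ) ≠ 0 := card_ne_zero'
  have key : ∀ y, (Nat.card H : ℂ) * Nat.card K * T y =
      Nat.card {g : G // g ∈ H ∧ y⁻¹ * g * y ∈ K} * ∑ x, if DC H K y x then T x else 0 := by
    intro y
    have e1 : ∑ p : H × K, T (p.1.1 * y * p.2.1) = (Nat.card H : ℂ) * Nat.card K * T y := by
      simp only [hT _ (Subtype.prop _) _ (Subtype.prop _), sum_const, card_univ, nsmul_eq_mul,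
        ← Nat.card_eq_fintype_card, Nat.card_prod]
      push_cast; ring
    rw [← e1, ← sum_fiberwise (s := univ) (g := fun p : H × K => p.1.1 * y * p.2.1), mul_sum]
    refine sum_congr rfl fun x _ => ?_
    rw [sum_congr rfl (g := fun _ => T x) (fun p hp => by rw [(mem_filter.1 hp).2]), sum_const,
      nsmul_eq_mul]
    split_ifs with h
    · rw [← card_fiber_dc H K h, Nat.card_eq_fintype_card, Fintype.card_subtype]
    · rw [filter_eq_empty_iff.2, card_empty]
      · simp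
      · rintro p - hp
        exact h ⟨_, p.1.2, _, p.2.2, hp.symm⟩
  have key2 : ∀ y, (Nat.card {g : G // g ∈ H ∧ y⁻¹ * g * y ∈ K} : ℂ)⁻¹ * T y =
      (Nat.card H : ℂ)⁻¹ * (Nat.card K : ℂ)⁻¹ * ∑ x, if DC H K y x then T x else 0 := by
    intro y
    have : (Nat.card {g : G // g ∈ H ∧ y⁻¹ * g * y ∈ K} : ℂ) ≠ 0 := by
      have : Nonempty {g : G // g ∈ H ∧ y⁻¹ * g * y ∈ K} := ⟨⟨1, one_mem _, by simp⟩⟩
      exact_mod_cast Nat.card_pos.ne'
    field_simp
    linear_combination key y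
  simp only [key2, ← mul_sum]
  congr 1
  rw [sum_comm]
  refine sum_congr rfl fun x _ => ?_
  by_cases hx : T x = 0
  · simp [hx]
  · obtain ⟨w, hw, hu⟩ := hr x hx
    rw [sum_eq_single w, if_pos hw]
    · intro b _ hb
      rw [if_neg fun h => hb (hu b h)]
    · simp

theorem sum_eq_zero_of_avg {K : Type*} [Fintype K] [Nonempty K] (φ : K → G) (f : G → ℂ)
    (h : ∀ g, ∑ k, f (g * φ k) = 0) : ∑ g, f g = 0 := by
  have h1 : ∑ k : K, ∑ g, f (g * φ k) = Fintype.card K * ∑ g, f g := by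
    simp [sum_mul_right f]
  rw [sum_comm] at h1
  simp only [h, sum_const_zero] at h1
  exact (mul_eq_zero.1 h1.symm).resolve_left (by exact_mod_cast Fintype.card_ne_zero)

theorem sum_comp_surj {P L : Type*} [Group P] [Group L] [Fintype P] [Fintype L] (π : P →* L)
    (hπ : Function.Surjective π) (f : L → ℂ) :
    (Nat.card P : ℂ)⁻¹ * ∑ h, f (π h) = (Nat.card L : ℂ)⁻¹ * ∑ l, f l := by
  have hP : (Nat.card P : ℂ) ≠ 0 := card_ne_zero'
  have hL : (Nat.card L : ℂ) ≠ 0 := card_ne_zero'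
  choose s hs using hπ
  have h1 : ∑ l : L, ∑ h, f (π (h * s l)) = Nat.card L * ∑ h, f (π h) := by
    simp only [sum_mul_right (fun h => f (π h)), sum_const, card_univ, nsmul_eq_mul,
      Nat.card_eq_fintype_card]
  rw [sum_comm] at h1
  simp only [map_mul, hs, sum_mul_left f, sum_const, card_univ, nsmul_eq_mul,
    ← Nat.card_eq_fintype_card] at h1
  field_simp
  linear_combination -h1

theorem sum_subgroup (H : Subgroup G) [Fintype H] {f : G → ℂ} (hf : ∀ g, g ∉ H → f g = 0) :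
    ∑ g, f g = ∑ h : H, f h := by
  classical
  rw [← sum_subset (subset_univ (univ.filter (· ∈ H))) (fun g _ hg => hf g (by simpa using hg))]
  exact sum_subtype _ (by simp) f

omit [Fintype G] in
theorem char_sum_nat {K : Type*} [Group K] [Fintype K] {χ : G → ℂ} (h : IsCharacter G χ)
    (φ : K →* G) : ∃ m : ℕ, ∑ k, χ (φ k) = m := by
  obtain ⟨m, hm⟩ := IsCharacter.classInner_nat (IsCharacter.comp h φ) isCharacter_one
  have hK : (Nat.card K : ℂ) ≠ 0 := card_ne_zero'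
  refine ⟨Nat.card K * m, ?_⟩
  simp only [classInner, map_one, mul_one] at hm
  push_cast
  rw [← hm]
  field_simp

omit [Fintype G] in
theorem char_sum_mul_eq_zero {K : Type*} [Group K] [Fintype K] {χ : G → ℂ} (h : IsCharacter G χ)
    (φ : K →* G) (h0 : ∑ k, χ (φ k) = 0) (g : G) : ∑ k, χ (g * φ k) = 0 := by
  obtain ⟨n, ρ, rfl⟩ := h
  have hK : (Nat.card K : ℂ) ≠ 0 := card_ne_zero'
  set E : Module.End ℂ (Fin n → ℂ) := (Nat.card K : ℂ)⁻¹ • ∑ k, ρ (φ k) with hE
  have h1 : ∀ k, ρ (φ k) * E = E := by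
    intro k
    rw [hE, mul_smul_comm, mul_sum]
    simp only [← map_mul]
    congr 1
    exact Fintype.sum_equiv (Equiv.mulLeft k) _ _ (by simp)
  have h2 : IsIdempotentElem E := by
    unfold IsIdempotentElem
    nth_rewrite 1 [hE]
    rw [smul_mul_assoc, sum_mul]
    simp only [h1, sum_const, card_univ, ← Nat.card_eq_fintype_card]
    rw [← Nat.cast_smul_eq_nsmul ℂ, smul_smul, inv_mul_cancel₀ hK, one_smul]
  have h3 : LinearMap.trace ℂ _ E = 0 := by
    rw [hE, map_smul, map_sum]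
    simp only [Representation.character] at h0
    rw [h0, smul_zero]
  have h4 : E = 0 := by
    have := (LinearMap.IsIdempotentElem.isProj_range E h2).trace
    rw [h3] at this
    have h5 : Module.finrank ℂ (LinearMap.range E) = 0 := by exact_mod_cast this.symm
    rwa [Submodule.finrank_eq_zero, LinearMap.range_eq_bot] at h5
  have h5 : ∑ k, ρ (φ k) = 0 := by
    rw [hE, smul_eq_zero] at h4
    exact h4.resolve_left (inv_ne_zero hK)
  simp only [Representation.character, map_mul, ← map_sum, ← mul_sum, h5, mul_zero, map_zero]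

theorem inner_ne_zero_of_common {a b χ : G → ℂ} (ha : IsCharacter G a) (hb : IsCharacter G b)
    (hχ : IsIrrCharacter G χ) (h1 : classInner χ a ≠ 0) (h2 : classInner χ b ≠ 0) :
    classInner a b ≠ 0 := by
  have h3 : classInner a χ ≠ 0 := by rwa [IsCharacter.classInner_comm ha (IsIrrCharacter.isCharacter hχ)]
  obtain ⟨m, hm⟩ := IsCharacter.classInner_nat (IsCharacter.sub_irr ha hχ h3) hb
  obtain ⟨k, hk⟩ := IsCharacter.classInner_nat (IsIrrCharacter.isCharacter hχ) hb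
  rw [classInner_sub_left] at hm
  have : classInner a b = ((m + k : ℕ) : ℂ) := by push_cast; linear_combination hm + hk
  rw [this]
  rw [hk] at h2
  have : k ≠ 0 := by exact_mod_cast h2
  exact_mod_cast (by omega : m + k ≠ 0)

end Cfsg.Agent.H6.HC
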