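import Cfsg.Agent.H6.HC1
import Cfsg.Agent.H6.FlagInner

/-! Pattern subgroups, parabolic subgroups and Levi projections of `GL`. -/

set_option autoImplicit false
set_option linter.unusedSectionVars false
open Finset
open scoped ComplexConjugate MatrixGroups Matrix

namespace Cfsg.Agent.H6.HC

open Cfsg Cfsg.Agent.H1

noncomputable scoped instance (priority := high) instFintypeSubgroupHC {G : Type*} [Group G]
    [Finite G] (H : Subgroup G) : Fintype H := Fintype.ofFinite H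

variable {F : Type*} [Field F] [Fintype F] [DecidableEq F]
variable {ι ι' ι'' : Type} [Fintype ι] [DecidableEq ι] [Fintype ι'] [DecidableEq ι'] [Fintype ι'']
  [DecidableEq ι''] {κ κ' : Type} [Fintype κ] [LinearOrder κ] [Fintype κ'] [LinearOrder κ']

/-- The pattern submonoid of a transitive relation. -/
def PatM (F : Type*) [Field F] (r : ι → ι → Prop) (hr : ∀ i j k, r i j → r j k → r i k) :
    Submonoid (GL ι F) where
  carrier := {g | ∀ i j, ¬ r i j → g.1 i j = (1 : Matrix ι ι F) i j}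
  one_mem' := fun _ _ _ => rfl
  mul_mem' := by
    intro g h hg hh i j hij
    have e : (g * h).1 = (g.1 - 1) * (h.1 - 1) + g.1 + h.1 - 1 := by
      rw [Units.val_mul]; noncomm_ring
    have h0 : ((g.1 - 1) * (h.1 - 1)) i j = 0 := by
      rw [Matrix.mul_apply]
      refine sum_eq_zero fun k _ => ?_
      by_cases h1 : r i k
      · rw [Matrix.sub_apply h.1, hh k j (fun h2 => hij (hr _ _ _ h1 h2)), sub_self, mul_zero]
      · rw [Matrix.sub_apply g.1, hg i k h1, sub_self, zero_mul]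
    rw [e, Matrix.sub_apply, Matrix.add_apply, Matrix.add_apply, h0, hg i j hij, hh i j hij]
    ring

/-- The pattern subgroup of a transitive relation. -/
def Pat (F : Type*) [Field F] [Finite F] (r : ι → ι → Prop) (hr : ∀ i j k, r i j → r j k → r i k) :
    Subgroup (GL ι F) where
  toSubmonoid := PatM F r hr
  inv_mem' := by
    intro g hg
    obtain ⟨n, hn⟩ : g⁻¹ ∈ Submonoid.powers g :=
      mem_powers_iff_mem_zpowers.2 (inv_mem (Subgroup.mem_zpowers g))
    rw [← hn]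
    exact (PatM F r hr).pow_mem hg n

theorem mem_Pat {r : ι → ι → Prop} {hr : ∀ i j k, r i j → r j k → r i k} {g : GL ι F} :
    g ∈ Pat F r hr ↔ ∀ i j, ¬ r i j → g.1 i j = (1 : Matrix ι ι F) i j := Iff.rfl

/-- The unipotent radical of the parabolic subgroup of a labelling. -/
def Rad (F : Type*) [Field F] [Finite F] (a : ι → κ) : Subgroup (GL ι F) :=
  Pat F (fun i j => a i < a j) fun _ _ _ => lt_trans

/-- The unipotent radical of a maximal parabolic subgroup. -/
def Rad2 (F : Type*) [Field F] [Finite F] (p : ι → Prop) : Subgroup (GL ι F) :=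
  Pat F (fun i j => p i ∧ ¬ p j) fun _ _ _ h h' => ⟨h.1, h'.2⟩

/-- The parabolic subgroup of a labelling. -/
def Par (F : Type*) [Field F] (a : ι → κ) : Subgroup (GL ι F) where
  carrier := {g | g.1.BlockTriangular a}
  mul_mem' := fun ha hb => Matrix.BlockTriangular.mul ha hb
  one_mem' := Matrix.blockTriangular_one
  inv_mem' := fun {g} hg => by
    have : Invertible g.1 := g.invertible
    change (g⁻¹).1.BlockTriangular a
    rw [Matrix.coe_units_inv]
    exact Matrix.blockTriangular_inv_of_blockTriangular hg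

theorem mem_Par {a : ι → κ} {g : GL ι F} : g ∈ Par F a ↔ ∀ i j, a j < a i → g.1 i j = 0 := Iff.rfl

theorem mem_Rad {a : ι → κ} {g : GL ι F} :
    g ∈ Rad F a ↔ ∀ i j, ¬ a i < a j → g.1 i j = (1 : Matrix ι ι F) i j := Iff.rfl

theorem mem_Rad2 {p : ι → Prop} {g : GL ι F} :
    g ∈ Rad2 F p ↔ ∀ i j, ¬ (p i ∧ ¬ p j) → g.1 i j = (1 : Matrix ι ι F) i j := Iff.rfl

theorem Rad_le_Par (a : ι → κ) : Rad F a ≤ Par F a := fun g hg i j hij => by
  rw [hg i j (not_lt.2 hij.le), Matrix.one_apply_ne]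
  rintro rfl
  exact lt_irrefl _ hij

/-- The blocks of a labelling. -/
abbrev Blk (a : ι → κ) (k : κ) : Type := {i // a i = k}

theorem toSquareBlock_mul {a : ι → κ} {M N : Matrix ι ι F} (hM : M.BlockTriangular a)
    (hN : N.BlockTriangular a) (k : κ) :
    (M * N).toSquareBlock a k = M.toSquareBlock a k * N.toSquareBlock a k := by
  ext ⟨i, hi⟩ ⟨j, hj⟩
  simp only [Matrix.toSquareBlock_def, Matrix.of_apply, Matrix.mul_apply]
  rw [← sum_subset (subset_univ (univ.filter fun l => a l = k))]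
  · exact sum_subtype _ (by simp) _
  · intro l _ hl
    have hl' : a l ≠ k := by simpa using hl
    rcases lt_or_gt_of_ne hl' with h | h
    · rw [hM (by rwa [hi]), zero_mul]
    · rw [hN (by rwa [hj]), mul_zero]

theorem toSquareBlock_one (a : ι → κ) (k : κ) : (1 : Matrix ι ι F).toSquareBlock a k = 1 := by
  ext ⟨i, hi⟩ ⟨j, hj⟩
  simp [Matrix.toSquareBlock_def, Matrix.one_apply]

/-- The Levi projection. -/
def proj (F : Type*) [Field F] [Fintype F] [DecidableEq F] (a : ι → κ) :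
    Par F a →* ∀ k, GL (Blk a k) F where
  toFun g k := ⟨g.1.1.toSquareBlock a k, (g⁻¹).1.1.toSquareBlock a k,
    by rw [← toSquareBlock_mul g.2 (g⁻¹).2]; simp [toSquareBlock_one],
    by rw [← toSquareBlock_mul (g⁻¹).2 g.2]; simp [toSquareBlock_one]⟩
  map_one' := funext fun k => Units.ext (toSquareBlock_one a k)
  map_mul' g h := funext fun k => Units.ext (toSquareBlock_mul g.2 h.2 k)

theorem proj_apply (a : ι → κ) (g : Par F a) (k : κ) (i j : Blk a k) :
    (proj F a g k).1 i j = g.1.1 i.1 j.1 := rfl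

/-- Reindexing. -/
def reGL (F : Type*) [Field F] (e : ι ≃ ι') : GL ι F ≃* GL ι' F :=
  Units.mapEquiv (Matrix.reindexAlgEquiv F F e).toMulEquiv

theorem reGL_apply (e : ι ≃ ι') (g : GL ι F) (i j : ι') :
    (reGL F e g).1 i j = g.1 (e.symm i) (e.symm j) := rfl

theorem reGL_trans (e : ι ≃ ι') (e' : ι' ≃ ι'') (g : GL ι F) :
    reGL F (e.trans e') g = reGL F e' (reGL F e g) := rfl

theorem reGL_refl (g : GL ι F) : reGL F (Equiv.refl ι) g = g := rfl

theorem conj_permGL (w : Equiv.Perm ι) (g : GL ι F) :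
    (permGL F w)⁻¹ * g * permGL F w = reGL F w.symm g := by
  apply Units.ext
  ext i j
  rw [← map_inv, Units.val_mul, Units.val_mul, mul_permGL_apply, reGL_apply]
  have := permGL_mul_apply F g.1 w⁻¹ (w i) (w j)
  simpa using this

theorem conj_permGL_apply (w : Equiv.Perm ι) (g : GL ι F) (i j : ι) :
    ((permGL F w)⁻¹ * g * permGL F w).1 i j = g.1 (w i) (w j) := by
  rw [conj_permGL]; rfl

theorem class_reGL {φ : GL ι' F → ℂ} (hφ : IsClassFunction _ φ) (e e' : ι ≃ ι') (g : GL ι F) :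
    φ (reGL F e g) = φ (reGL F e' g) := by
  rw [← class_conj hφ (reGL F e' g) (permGL F (e.symm.trans e')), conj_permGL]
  congr 1
  apply Units.ext
  ext i j
  simp [reGL_apply]

/-- Block diagonal matrices. -/
noncomputable def diagB (F : Type*) [Field F] (a : ι → κ) : (∀ k, GL (Blk a k) F) →* GL ι F :=
  ((Units.map ((Matrix.reindexAlgEquiv F F (Equiv.sigmaFiberEquiv a)).toRingEquiv.toMonoidHom.comp
    (Matrix.blockDiagonal'RingHom (Blk a) F).toMonoidHom))).comp MulEquiv.piUnits.symm.toMonoidHom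

theorem diagB_apply_eq (a : ι → κ) (l : ∀ k, GL (Blk a k) F) (k : κ) (i j : Blk a k) :
    (diagB F a l).1 i.1 j.1 = (l k).1 i j := by
  obtain ⟨i, rfl⟩ := i
  obtain ⟨j, hj⟩ := j
  change Matrix.blockDiagonal' (fun k => (l k).1) ⟨a i, ⟨i, rfl⟩⟩ ⟨a j, ⟨j, rfl⟩⟩ = _
  have : (⟨a j, ⟨j, rfl⟩⟩ : Σ k, Blk a k) = ⟨a i, ⟨j, hj⟩⟩ :=
    (Equiv.sigmaFiberEquiv a).injective rfl
  rw [this, Matrix.blockDiagonal'_apply_eq]

theorem diagB_apply_ne (a : ι → κ) (l : ∀ k, GL (Blk a k) F) {i j : ι} (h : a i ≠ a j) :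
    (diagB F a l).1 i j = 0 :=
  Matrix.blockDiagonal'_apply_ne (fun k => (l k).1) (⟨i, rfl⟩ : Blk a (a i)) (⟨j, rfl⟩ : Blk a (a j)) h

theorem diagB_mem (a : ι → κ) (l : ∀ k, GL (Blk a k) F) : diagB F a l ∈ Par F a :=
  fun _ _ h => diagB_apply_ne a l h.ne'

theorem proj_diagB (a : ι → κ) (l : ∀ k, GL (Blk a k) F) : proj F a ⟨_, diagB_mem a l⟩ = l :=
  funext fun k => Units.ext (Matrix.ext fun i j => diagB_apply_eq a l k i j)

theorem proj_surj (a : ι → κ) : Function.Surjective (proj F a) := fun l => ⟨_, proj_diagB a l⟩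

/-- Embedding of one block. -/
noncomputable def emb (F : Type*) [Field F] (a : ι → κ) (k : κ) : GL (Blk a k) F →* GL ι F :=
  (diagB F a).comp (MonoidHom.mulSingle (fun k => GL (Blk a k) F) k)

theorem emb_mem (a : ι → κ) (k : κ) (u : GL (Blk a k) F) : emb F a k u ∈ Par F a := diagB_mem a _

theorem proj_emb (a : ι → κ) (k : κ) (u : GL (Blk a k) F) :
    proj F a ⟨_, emb_mem a k u⟩ = Pi.mulSingle k u := proj_diagB a _

theorem emb_apply_eq (a : ι → κ) (k : κ) (u : GL (Blk a k) F) (i j : Blk a k) :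
    (emb F a k u).1 i.1 j.1 = u.1 i j := by
  have := diagB_apply_eq (F := F) a (Pi.mulSingle k u) k i j
  rwa [Pi.mulSingle_eq_same] at this

theorem emb_apply_ne (a : ι → κ) (k : κ) (u : GL (Blk a k) F) {i j : ι} (h : ¬ (a i = k ∧ a j = k)) :
    (emb F a k u).1 i j = (1 : Matrix ι ι F) i j := by
  by_cases hij : a i = a j
  · have := diagB_apply_eq (F := F) a (Pi.mulSingle k u) (a j) ⟨i, hij⟩ ⟨j, rfl⟩
    rw [Pi.mulSingle_eq_of_ne (fun h' => h ⟨hij.trans h', h'⟩)] at this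
    exact this.trans (by simp [Matrix.one_apply])
  · rw [Matrix.one_apply_ne (fun h' => hij (congrArg a h'))]
    exact diagB_apply_ne a _ hij

theorem proj_rad {a : ι → κ} {g : GL ι F} (hg : g ∈ Rad F a) : proj F a ⟨g, Rad_le_Par a hg⟩ = 1 := by
  funext k
  apply Units.ext
  ext i j
  rw [proj_apply, mem_Rad.1 hg _ _ (by rw [i.2, j.2]; exact lt_irrefl _)]
  simp [Matrix.one_apply, Subtype.ext_iff]

open Classical in
/-- The inflation of a product of functions on the blocks, extended by zero. -/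
noncomputable def Th (a : ι → κ) (f : ∀ k, GL (Blk a k) F → ℂ) (g : GL ι F) : ℂ :=
  if h : g ∈ Par F a then ∏ k, f k (proj F a ⟨g, h⟩ k) else 0

theorem Th_of_mem {a : ι → κ} (f : ∀ k, GL (Blk a k) F → ℂ) {g : GL ι F} (h : g ∈ Par F a) :
    Th a f g = ∏ k, f k (proj F a ⟨g, h⟩ k) := dif_pos h

theorem Th_coe {a : ι → κ} (f : ∀ k, GL (Blk a k) F → ℂ) (g : Par F a) :
    Th a f g = ∏ k, f k (proj F a g k) := dif_pos g.2

theorem Th_of_not_mem {a : ι → κ} (f : ∀ k, GL (Blk a k) F → ℂ) (g : GL ι F) (h : g ∉ Par F a) :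
    Th a f g = 0 := dif_neg h

theorem Th_mul {a : ι → κ} (f : ∀ k, GL (Blk a k) F → ℂ) {g u : GL ι F} (h : g ∈ Par F a)
    (hu : u ∈ Par F a) : Th a f (g * u) = ∏ k, f k (proj F a ⟨g, h⟩ k * proj F a ⟨u, hu⟩ k) := by
  rw [Th_of_mem f (mul_mem h hu)]
  exact prod_congr rfl fun k _ => congrArg _ (congrFun ((proj F a).map_mul ⟨g, h⟩ ⟨u, hu⟩) k)

theorem Th_mul_rad {a : ι → κ} (f : ∀ k, GL (Blk a k) F → ℂ) (g : GL ι F) {u : GL ι F}
    (hu : u ∈ Rad F a) : Th a f (g * u) = Th a f g := by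
  by_cases h : g ∈ Par F a
  · rw [Th_mul f h (Rad_le_Par a hu), proj_rad hu, Th_of_mem f h]
    simp
  · rw [Th_of_not_mem f _ h, Th_of_not_mem]
    rwa [Subgroup.mul_mem_cancel_right _ (Rad_le_Par a hu)]

theorem Th_conj {a : ι → κ} {f : ∀ k, GL (Blk a k) F → ℂ} (hf : ∀ k, IsClassFunction _ (f k))
    (h : GL ι F) (hh : h ∈ Par F a) (g : GL ι F) : Th a f (h⁻¹ * g * h) = Th a f g := by
  by_cases hg : g ∈ Par F a
  · rw [Th_of_mem f hg, Th_of_mem f (mul_mem (mul_mem (inv_mem hh) hg) hh)]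
    refine prod_congr rfl fun k _ => ?_
    have : (⟨h⁻¹ * g * h, mul_mem (mul_mem (inv_mem hh) hg) hh⟩ : Par F a) =
      (⟨h, hh⟩ : Par F a)⁻¹ * ⟨g, hg⟩ * ⟨h, hh⟩ := rfl
    rw [this, map_mul, map_mul, map_inv]
    exact class_conj (hf k) _ _
  · rw [Th_of_not_mem f _ hg, Th_of_not_mem]
    rwa [Subgroup.mul_mem_cancel_right _ hh, Subgroup.mul_mem_cancel_left _ (inv_mem hh)]

theorem isCharacter_prod {G : Type*} [Group G] {α : Type*} (s : Finset α) (f : α → G → ℂ)
    (h : ∀ i ∈ s, IsCharacter G (f i)) : IsCharacter G (fun g => ∏ i ∈ s, f i g) := by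
  classical
  induction s using Finset.induction_on with
  | empty => simpa using isCharacter_one
  | insert i s hi ih =>
    simp only [prod_insert hi]
    exact IsCharacter.mul (h i (mem_insert_self _ _)) (ih fun j hj => h j (mem_insert_of_mem hj))

theorem isCharacter_Th {a : ι → κ} {f : ∀ k, GL (Blk a k) F → ℂ} (hf : ∀ k, IsCharacter _ (f k)) :
    IsCharacter (Par F a) (fun g => Th a f g) := by
  simp only [Th_coe]
  exact isCharacter_prod _ _ fun k _ =>
    IsCharacter.comp (hf k) ((Pi.evalMonoidHom (fun k => GL (Blk a k) F) k).comp (proj F a))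

/-- Harish-Chandra induction. -/
noncomputable def hc (a : ι → κ) (f : ∀ k, GL (Blk a k) F → ℂ) : GL ι F → ℂ := ind (Par F a) (Th a f)

theorem isCharacter_hc {a : ι → κ} {f : ∀ k, GL (Blk a k) F → ℂ} (hf : ∀ k, IsCharacter _ (f k)) :
    IsCharacter _ (hc a f) :=
  isCharacter_ind _ (Th_of_not_mem f) (isCharacter_Th hf)

theorem avg_prod {P : Type*} [Group P] [Fintype P] {L : κ → Type*} [∀ k, Group (L k)]
    [∀ k, Fintype (L k)] (π : P →* ∀ k, L k) (hπ : Function.Surjective π) (f : ∀ k, L k → ℂ) :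
    (Nat.card P : ℂ)⁻¹ * ∑ h, ∏ k, f k (π h k) = ∏ k, (Nat.card (L k) : ℂ)⁻¹ * ∑ x, f k x := by
  rw [sum_comp_surj π hπ (fun l => ∏ k, f k (l k)), prod_mul_distrib, Fintype.prod_sum, Nat.card_pi]
  simp

/-- The upper unitriangular group. -/
def UU (F : Type*) [Field F] [Finite F] (ι : Type) [Fintype ι] [DecidableEq ι] [LinearOrder ι] :
    Subgroup (GL ι F) :=
  Rad F (id : ι → ι)

theorem mem_UU [LinearOrder ι] {g : GL ι F} :
    g ∈ UU F ι ↔ ∀ i j, ¬ i < j → g.1 i j = (1 : Matrix ι ι F) i j := Iff.rfl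

theorem exists_antitone {n : ℕ} (a : Fin n → κ) : ∃ σ : Equiv.Perm (Fin n), Antitone (a ∘ σ) :=
  ⟨Tuple.sort (OrderDual.toDual ∘ a), Tuple.monotone_sort (OrderDual.toDual ∘ a)⟩

theorem bruhat_PU {n : ℕ} (a : Fin n → κ) (x : GL (Fin n) F) :
    ∃ p ∈ Par F a, ∃ w : Equiv.Perm (Fin n), ∃ u ∈ UU F (Fin n), x = p * permGL F w * u := by
  obtain ⟨σ, hσ⟩ : ∃ σ : Equiv.Perm (Fin n), Monotone (a ∘ σ) := ⟨_, Tuple.monotone_sort a⟩
  obtain ⟨w, b, u, hb, hb', hu, hu', e⟩ := bruhat_aux ((permGL F σ)⁻¹ * x)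
  have hu1 : triGL u hu (fun i => by rw [hu']; exact one_ne_zero) ∈ UU F (Fin n) := by
    refine mem_UU.2 fun i j hij => ?_
    rcases (not_lt.1 hij).eq_or_lt with h | h
    · obtain rfl : j = i := h
      rw [Matrix.one_apply_eq]; exact hu' _
    · rw [Matrix.one_apply_ne (ne_of_gt h)]; exact hu h
  refine ⟨(permGL F σ⁻¹)⁻¹ * triGL b hb hb' * permGL F σ⁻¹, ?_, σ * w, _, inv_mem hu1, ?_⟩
  · intro i j hij
    rw [conj_permGL_apply]
    refine hb (lt_of_not_ge fun h => not_le.2 hij ?_)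
    simpa using hσ h
  · have e' : (permGL F σ)⁻¹ * x * triGL u hu (fun i => by rw [hu']; exact one_ne_zero) =
      triGL b hb hb' * permGL F w := Units.ext e
    generalize triGL u hu _ = u' at e' ⊢
    rw [map_mul, map_inv, inv_inv]
    calc x = permGL F σ * ((permGL F σ)⁻¹ * x * u') * u'⁻¹ := by group
      _ = _ := by rw [e']; group

theorem bruhat_PP {n : ℕ} (a : Fin n → κ) (b : Fin n → κ') (x : GL (Fin n) F) :
    ∃ w : Equiv.Perm (Fin n), DC (Par F a) (Par F b) (permGL F w) x := by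
  obtain ⟨σ, hσ⟩ : ∃ σ : Equiv.Perm (Fin n), Monotone (b ∘ σ) := ⟨_, Tuple.monotone_sort b⟩
  obtain ⟨p, hp, w, u, hu, e⟩ := bruhat_PU a (x * permGL F σ)
  refine ⟨w * σ⁻¹, p, hp, (permGL F σ⁻¹)⁻¹ * u * permGL F σ⁻¹, ?_, ?_⟩
  · intro i j hij
    rw [conj_permGL_apply]
    refine Rad_le_Par _ hu (lt_of_not_ge fun h => not_le.2 hij ?_)
    simpa using hσ h
  · rw [map_mul, map_inv, inv_inv]
    calc x = (x * permGL F σ) * (permGL F σ)⁻¹ := by group
      _ = _ := by rw [e]; group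

end Cfsg.Agent.H6.HC
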