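import Cfsg.Agent.H6.HC2

/-! Cuspidal characters of `GL` and the Mackey formula for Harish-Chandra induction. -/

set_option autoImplicit false
set_option linter.unusedSectionVars false
open Finset
open scoped ComplexConjugate MatrixGroups Matrix

namespace Cfsg.Agent.H6.HC

open Cfsg Cfsg.Agent.H1

variable {F : Type*} [Field F] [Fintype F] [DecidableEq F]
variable {ι ι' ι'' : Type} [Fintype ι] [DecidableEq ι] [Fintype ι'] [DecidableEq ι'] [Fintype ι'']
  [DecidableEq ι''] {κ κ' : Type} [Fintype κ] [LinearOrder κ] [Fintype κ'] [LinearOrder κ']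

/-- Cuspidal functions. -/
def IsCusp (χ : GL ι F → ℂ) : Prop :=
  ∀ p : ι → Prop, (∃ i, p i) → (∃ j, ¬ p j) → ∑ u : Rad2 F p, χ u = 0

theorem sum_subgroup_equiv {G G' : Type*} [Group G] [Group G'] [Finite G] [Finite G'] (e : G ≃* G')
    (H : Subgroup G) (H' : Subgroup G') (h : ∀ g, g ∈ H ↔ e g ∈ H') (f : G' → ℂ) :
    ∑ u : H, f (e u) = ∑ u : H', f u :=
  Fintype.sum_equiv (e.toEquiv.subtypeEquiv h) _ _ fun _ => rfl

theorem IsCusp.comp_reGL {χ : GL ι' F → ℂ} (h : IsCusp χ) (e : ι ≃ ι') :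
    IsCusp (fun g => χ (reGL F e g)) := by
  rintro p ⟨i, hi⟩ ⟨j, hj⟩
  rw [← h (fun i => p (e.symm i)) ⟨e i, by simpa⟩ ⟨e j, by simpa⟩]
  refine sum_subgroup_equiv (reGL F e) _ _ (fun g => ?_) χ
  simp only [mem_Rad2, reGL_apply]
  constructor
  · intro h i j hij
    rw [h _ _ hij]; simp [Matrix.one_apply]
  · intro h i j hij
    have := h (e i) (e j) (by simpa using hij)
    simpa [Matrix.one_apply] using this

theorem TT_symm {G : Type*} [Group G] [Fintype G] (f₁ f₂ : G → ℂ) (x : G) :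
    TT f₁ f₂ x = conj (TT f₂ f₁ x⁻¹) := by
  simp only [TT, map_sum, map_mul, Complex.conj_conj]
  rw [← sum_conj (fun g => conj (f₂ g) * f₁ (x⁻¹⁻¹ * g * x⁻¹)) x]
  refine sum_congr rfl fun g _ => ?_
  rw [mul_comm]
  congr 2
  group

theorem sum_Th_emb {a : ι → κ} {f : ∀ k, GL (Blk a k) F → ℂ} {k : κ} (K : Subgroup (GL (Blk a k) F))
    (hf : IsCharacter _ (f k)) (h0 : ∑ u : K, f k u = 0) (g : GL ι F) :
    ∑ u : K, Th a f (g * emb F a k u) = 0 := by
  by_cases hg : g ∈ Par F a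
  · have : ∀ u : K, Th a f (g * emb F a k u) = f k (proj F a ⟨g, hg⟩ k * u) *
        ∏ l ∈ univ.erase k, f l (proj F a ⟨g, hg⟩ l) := by
      intro u
      rw [Th_mul f hg (emb_mem a k _), proj_emb, ← mul_prod_erase _ _ (mem_univ k),
        Pi.mulSingle_eq_same]
      congr 1
      exact prod_congr rfl fun l hl => by rw [Pi.mulSingle_eq_of_ne (mem_erase.1 hl).1, mul_one]
    simp only [this, ← sum_mul]
    have h1 := char_sum_mul_eq_zero hf K.subtype h0 (proj F a ⟨g, hg⟩ k)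
    simp only [Subgroup.coe_subtype] at h1
    rw [h1, zero_mul]
  · refine sum_eq_zero fun u _ => Th_of_not_mem f _ ?_
    rwa [Subgroup.mul_mem_cancel_right _ (emb_mem a k _)]

theorem TT_eq_zero {a : ι → κ} {b : ι → κ'} {f : ∀ k, GL (Blk a k) F → ℂ}
    (f' : ∀ k, GL (Blk b k) F → ℂ) (hf : ∀ k, IsCharacter _ (f k)) (hc : ∀ k, IsCusp (f k))
    (w : Equiv.Perm ι) {i j : ι} (h1 : a i = a j) (h2 : b (w.symm i) < b (w.symm j)) :
    TT (Th a f) (Th b f') (permGL F w) = 0 := by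
  let p : Blk a (a i) → Prop := fun l => b (w.symm l.1) ≤ b (w.symm i)
  refine sum_eq_zero_of_avg (fun u : Rad2 F p => emb F a (a i) u) _ fun g => ?_
  have : ∀ u : Rad2 F p, Th b f' ((permGL F w)⁻¹ * (g * emb F a (a i) u) * permGL F w) =
      Th b f' ((permGL F w)⁻¹ * g * permGL F w) := by
    intro u
    rw [← Th_mul_rad f' ((permGL F w)⁻¹ * g * permGL F w)
      (u := (permGL F w)⁻¹ * emb F a (a i) u * permGL F w)]
    · congr 1; group
    · refine mem_Rad.2 fun x y hxy => ?_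
      rw [conj_permGL_apply]
      by_cases h : a (w x) = a i ∧ a (w y) = a i
      · rw [emb_apply_eq a (a i) u.1 ⟨_, h.1⟩ ⟨_, h.2⟩, mem_Rad2.1 u.2]
        · simp [Matrix.one_apply]
        · simp only [p, Equiv.symm_apply_apply, not_le]
          exact fun h => hxy (h.1.trans_lt h.2)
      · rw [emb_apply_ne a _ _ h]
        simp [Matrix.one_apply]
  simp only [this, ← sum_mul]
  rw [sum_Th_emb _ (hf _) (hc _ p ⟨⟨i, rfl⟩, le_rfl⟩ ⟨⟨j, h1.symm⟩, not_le.2 h2⟩), zero_mul]

theorem exists_match {a : ι → κ} {b : ι → κ'} (ha : Function.Surjective a)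
    (hb : Function.Surjective b) {f : ∀ k, GL (Blk a k) F → ℂ}
    {f' : ∀ k, GL (Blk b k) F → ℂ} (hf : ∀ k, IsCharacter _ (f k)) (hc : ∀ k, IsCusp (f k))
    (hf' : ∀ k, IsCharacter _ (f' k)) (hc' : ∀ k, IsCusp (f' k))
    (w : Equiv.Perm ι) (h : TT (Th a f) (Th b f') (permGL F w) ≠ 0) :
    ∃ β : κ ≃ κ', ∀ i, b (w.symm i) = β (a i) := by
  have h1 : ∀ i j, a i = a j → b (w.symm i) = b (w.symm j) := by
    intro i j hij
    by_contra hne
    rcases lt_or_gt_of_ne hne with h' | h'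
    · exact h (TT_eq_zero f' hf hc w hij h')
    · exact h (TT_eq_zero f' hf hc w hij.symm h')
  have h2 : ∀ i j, b (w.symm i) = b (w.symm j) → a i = a j := by
    intro i j hij
    by_contra hne
    rw [TT_symm, ← map_inv] at h
    rcases lt_or_gt_of_ne hne with h' | h'
    · exact h (by rw [TT_eq_zero f hf' hc' w⁻¹ hij (by simpa [Equiv.Perm.inv_def] using h'), map_zero])
    · exact h (by rw [TT_eq_zero f hf' hc' w⁻¹ hij.symm (by simpa [Equiv.Perm.inv_def] using h'), map_zero])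
  choose s hs using ha
  refine ⟨Equiv.ofBijective (fun k => b (w.symm (s k))) ⟨fun k l hkl => ?_, fun k => ?_⟩,
    fun i => h1 _ _ (hs _).symm⟩
  · rw [← hs k, h2 _ _ hkl, hs]
  · obtain ⟨j, rfl⟩ := hb k
    exact ⟨a (w j), (h1 _ _ (hs _)).trans (by simp)⟩

/-- The intersection of a subgroup with a conjugate of another one. -/
def Mk {G : Type*} [Group G] (H K : Subgroup G) (y : G) : Subgroup G where
  carrier := {g | g ∈ H ∧ y⁻¹ * g * y ∈ K}
  one_mem' := ⟨one_mem _, by simp⟩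
  mul_mem' := fun {g h} hg hh => ⟨mul_mem hg.1 hh.1, by
    have := mul_mem hg.2 hh.2
    rwa [show y⁻¹ * g * y * (y⁻¹ * h * y) = y⁻¹ * (g * h) * y by group] at this⟩
  inv_mem' := fun {g} hg => ⟨inv_mem hg.1, by
    have := inv_mem hg.2
    rwa [show (y⁻¹ * g * y)⁻¹ = y⁻¹ * g⁻¹ * y by group] at this⟩

/-- The bijection of blocks given by a matching permutation. -/
def blkEquiv {a : ι → κ} {b : ι → κ'} (w : Equiv.Perm ι) (β : κ ≃ κ')
    (h : ∀ i, b (w.symm i) = β (a i)) (k : κ) : Blk a k ≃ Blk b (β k) :=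
  w.symm.subtypeEquiv fun i => by rw [h]; simp

theorem TT_match {a : ι → κ} {b : ι → κ'} (f : ∀ k, GL (Blk a k) F → ℂ)
    (f' : ∀ k, GL (Blk b k) F → ℂ) (w : Equiv.Perm ι) (β : κ ≃ κ')
    (h : ∀ i, b (w.symm i) = β (a i)) :
    (Nat.card {g // g ∈ Par F a ∧ (permGL F w)⁻¹ * g * permGL F w ∈ Par F b} : ℂ)⁻¹ *
      TT (Th a f) (Th b f') (permGL F w) =
      ∏ k, classInner (f k) (fun g => f' (β k) (reGL F (blkEquiv w β h k) g)) := by
  set H := Mk (Par F a) (Par F b) (permGL F w)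
  have hle : H ≤ Par F a := fun g hg => hg.1
  have hs : Function.Surjective ((proj F a).comp (Subgroup.inclusion hle)) := by
    intro l
    refine ⟨⟨diagB F a l, diagB_mem a l, fun i j hij => ?_⟩, proj_diagB a l⟩
    rw [conj_permGL_apply, diagB_apply_ne]
    intro h'
    have h1 := h (w i)
    have h2 := h (w j)
    simp only [Equiv.symm_apply_apply] at h1 h2
    rw [h1, h2, h'] at hij
    exact lt_irrefl _ hij
  have := avg_prod _ hs (fun k g => f k g * conj (f' (β k) (reGL F (blkEquiv w β h k) g)))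
  simp only [classInner]
  rw [← this, TT, sum_subgroup H]
  · congr 1
    refine sum_congr rfl fun g _ => ?_
    rw [Th_of_mem f g.2.1, Th_of_mem f' g.2.2, prod_mul_distrib, map_prod, ← β.prod_comp]
    congr 1
    refine prod_congr rfl fun k _ => ?_
    congr 2
    apply Units.ext
    ext i j
    rw [proj_apply, conj_permGL_apply]
    rfl
  · intro g hg
    by_cases h1 : g ∈ Par F a
    · rw [Th_of_not_mem f' _ (fun h2 => hg ⟨h1, h2⟩), map_zero, mul_zero]
    · rw [Th_of_not_mem f _ h1, zero_mul]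

theorem match_unique {n : ℕ} {a : Fin n → κ} {b : Fin n → κ'} (ha : Function.Surjective a)
    {w w' : Equiv.Perm (Fin n)} {β β' : κ ≃ κ'} (h : ∀ i, b (w.symm i) = β (a i))
    (h' : ∀ i, b (w'.symm i) = β' (a i)) (hd : DC (Par F a) (Par F b) (permGL F w) (permGL F w')) :
    β = β' := by
  let A : κ ↪o ℕ := (monoEquivOfFin κ rfl).symm.toOrderEmbedding.trans (Fin.valOrderEmb _)
  let B : κ' ↪o ℕ := (monoEquivOfFin κ' rfl).symm.toOrderEmbedding.trans (Fin.valOrderEmb _)
  obtain ⟨p, hp, p', hp', e⟩ := hd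
  have t1 : ∀ g ∈ Par F a, g.1.BlockTriangular (A ∘ a) := fun g hg i j hij => hg (A.lt_iff_lt.1 hij)
  have t2 : ∀ g ∈ Par F b, g.1.BlockTriangular (B ∘ b) := fun g hg i j hij => hg (B.lt_iff_lt.1 hij)
  have key := count_pair_eq (fun j => (A ∘ a) (w' j)) (fun j => (A ∘ a) (w j)) (B ∘ b) (by
    intro s t
    apply le_antisymm
    · exact count_le_of_blockTriangular (F := F) _ _ w w' _ _ (t1 p hp) (t2 p' hp') (by rw [e]; rfl) s t
    · have e' : permGL F w = p⁻¹ * permGL F w' * p'⁻¹ := by rw [e]; group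
      exact count_le_of_blockTriangular (F := F) _ _ w' w _ _ (t1 _ (inv_mem hp)) (t2 _ (inv_mem hp'))
        (by rw [e']; rfl) s t)
  ext k
  obtain ⟨i, rfl⟩ := ha k
  have h1 := key (A (a i)) (B (β' (a i)))
  have h2 : 0 < (univ.filter fun j => (A ∘ a) (w' j) = A (a i) ∧ (B ∘ b) j = B (β' (a i))).card :=
    card_pos.2 ⟨w'.symm i, by simp [h']⟩
  rw [h1] at h2
  obtain ⟨j, hj⟩ := card_pos.1 h2
  simp only [mem_filter, mem_univ, true_and, Function.comp, EmbeddingLike.apply_eq_iff_eq] at hj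
  rw [← hj.2, ← hj.1, ← h]
  simp

theorem DC.symm {G : Type*} [Group G] {H K : Subgroup G} {x y : G} (h : DC H K x y) : DC H K y x := by
  obtain ⟨h, hh, k, hk, rfl⟩ := h
  exact ⟨h⁻¹, inv_mem hh, k⁻¹, inv_mem hk, by group⟩

theorem DC.trans {G : Type*} [Group G] {H K : Subgroup G} {x y z : G} (h : DC H K x y)
    (h' : DC H K y z) : DC H K x z := by
  obtain ⟨h, hh, k, hk, rfl⟩ := h
  obtain ⟨h', hh', k', hk', rfl⟩ := h'
  exact ⟨h' * h, mul_mem hh' hh, k * k', mul_mem hk hk', by group⟩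

/-- Irreducible characters of all the general linear groups. -/
abbrev Irr (F : Type*) [Field F] : Type _ := Σ d : ℕ, IrrCharacter (GL (Fin d) F)

/-- Evaluation on an arbitrary index type. -/
noncomputable def ev (c : Irr F) (ι : Type) [Fintype ι] [DecidableEq ι] (g : GL ι F) : ℂ :=
  if h : Fintype.card ι = c.1 then c.2.1 (reGL F (Fintype.equivFinOfCardEq h) g) else 0

theorem Irr.isClass (c : Irr F) : IsClassFunction _ c.2.1 :=
  IsCharacter.isClassFunction (IsIrrCharacter.isCharacter c.2.2)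

theorem ev_eq (c : Irr F) (e : ι ≃ Fin c.1) (g : GL ι F) : ev c ι g = c.2.1 (reGL F e g) := by
  rw [ev, dif_pos (by simpa using Fintype.card_congr e)]
  exact class_reGL c.isClass _ _ _

theorem ev_reGL (c : Irr F) (e : ι ≃ ι') (g : GL ι F) : ev c ι' (reGL F e g) = ev c ι g := by
  by_cases h : Fintype.card ι' = c.1
  · rw [ev_eq c (Fintype.equivFinOfCardEq h), ev_eq c (e.trans (Fintype.equivFinOfCardEq h))]
    rfl
  · rw [ev, ev, dif_neg h, dif_neg (by rwa [Fintype.card_congr e])]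

theorem isIrr_ev {c : Irr F} (h : Fintype.card ι = c.1) : IsIrrCharacter _ (ev c ι) := by
  have := IsIrrCharacter.comp_of_surjective c.2.2 (reGL F (Fintype.equivFinOfCardEq h)).toMonoidHom
    (reGL F _).surjective
  convert this using 1
  funext g
  exact ev_eq c _ g

theorem isCusp_ev {c : Irr F} (hc : IsCusp c.2.1) (h : Fintype.card ι = c.1) : IsCusp (ev c ι) := by
  convert hc.comp_reGL (Fintype.equivFinOfCardEq h) using 1
  funext g
  exact ev_eq c _ g

theorem ev_inj {c c' : Irr F} (h : Fintype.card ι = c.1) (h' : Fintype.card ι = c'.1)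
    (e : ev c ι = ev c' ι) : c = c' := by
  obtain ⟨d, χ⟩ := c
  obtain ⟨d', χ'⟩ := c'
  obtain rfl : d = d' := h.symm.trans h'
  congr 1
  apply Subtype.ext
  funext g
  obtain ⟨g, rfl⟩ := (reGL F (Fintype.equivFinOfCardEq h)).surjective g
  exact (ev_eq ⟨d, χ⟩ _ g).symm.trans ((congrFun e g).trans (ev_eq ⟨d, χ'⟩ _ g))

theorem exists_ev {χ : GL ι F → ℂ} (hχ : IsIrrCharacter _ χ) :
    ∃ c : Irr F, Fintype.card ι = c.1 ∧ ev c ι = χ ∧ (IsCusp χ → IsCusp c.2.1) := by
  refine ⟨⟨Fintype.card ι, _, IsIrrCharacter.comp_of_surjective hχ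
    (reGL F (Fintype.equivFin ι).symm).toMonoidHom (reGL F _).surjective⟩, rfl, ?_,
    fun h => h.comp_reGL _⟩
  funext g
  refine (ev_eq _ (Fintype.equivFin ι) g).trans ?_
  change χ (reGL F _ (reGL F _ g)) = _
  rw [← reGL_trans, Equiv.self_trans_symm, reGL_refl]

/-- A cuspidal datum. -/
structure Datum (a : ι → κ) (c : κ → Irr F) : Prop where
  surj : Function.Surjective a
  card : ∀ k, Fintype.card (Blk a k) = (c k).1
  cusp : ∀ k, IsCusp (c k).2.1

/-- The character induced from a cuspidal datum. -/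
noncomputable def hcD (a : ι → κ) (c : κ → Irr F) : GL ι F → ℂ := hc a fun k => ev (c k) (Blk a k)

theorem Datum.isChar {a : ι → κ} {c : κ → Irr F} (h : Datum a c) (k : κ) :
    IsCharacter _ (ev (c k) (Blk a k)) := IsIrrCharacter.isCharacter (isIrr_ev (h.card k))

theorem Datum.isCharacter {a : ι → κ} {c : κ → Irr F} (h : Datum a c) : IsCharacter _ (hcD a c) :=
  isCharacter_hc h.isChar

theorem exists_perm_match {a : ι → κ} {b : ι → κ'} (β : κ ≃ κ')
    (h : ∀ k, Fintype.card (Blk a k) = Fintype.card (Blk b (β k))) :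
    ∃ w : Equiv.Perm ι, ∀ i, b (w.symm i) = β (a i) := by
  obtain ⟨e, he⟩ := exists_equiv_of_fiber_card (β ∘ a) b (fun z => by
    obtain ⟨k, rfl⟩ := β.surjective z
    rw [← Fintype.card_subtype, ← Fintype.card_subtype, ← h]
    simp)
  exact ⟨e.symm, he⟩

open Classical in
theorem inner_hcD {n : ℕ} {a : Fin n → κ} {b : Fin n → κ'} {c : κ → Irr F} {c' : κ' → Irr F}
    (h : Datum a c) (h' : Datum b c') :
    classInner (hcD a c) (hcD b c') = Nat.card {β : κ ≃ κ' // ∀ k, c' (β k) = c k} := by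
  let W := {β : κ ≃ κ' // ∀ k, (c' (β k)).1 = (c k).1}
  have hw : ∀ β : W, ∃ w : Equiv.Perm (Fin n), ∀ i, b (w.symm i) = β.1 (a i) := fun β =>
    exists_perm_match β.1 fun k => by rw [h.card, h'.card, β.2]
  choose w hw using hw
  have hT := fun p hp p' hp' x => TT_mul (h := p) (k := p')
    (Th_conj fun k => IsCharacter.isClassFunction (h.isChar k))
    (Th_conj fun k => IsCharacter.isClassFunction (h'.isChar k)) hp hp' x
  rw [hcD, hcD, hc, hc, inner_ind_ind, mackey_sum _ _ _ hT (fun β : W => permGL F (w β))]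
  · have : ∀ β : W, ∏ k, classInner (ev (c k) (Blk a k))
        (fun g => ev (c' (β.1 k)) _ (reGL F (blkEquiv (w β) β.1 (hw β) k) g)) =
        if ∀ k, c' (β.1 k) = c k then 1 else 0 := by
      intro β
      simp only [ev_reGL]
      have h1 : ∀ k, Fintype.card (Blk a k) = (c' (β.1 k)).1 := fun k => by rw [h.card, β.2]
      split_ifs with hb
      · exact prod_eq_one fun k _ => by
          rw [hb]; exact IsIrrCharacter.classInner_self (isIrr_ev (h.card k))
      · obtain ⟨k, hk⟩ := not_forall.1 hb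
        exact prod_eq_zero (mem_univ k) (IsIrrCharacter.classInner_of_ne (isIrr_ev (h.card k))
          (isIrr_ev (h1 k)) fun e => hk (ev_inj (h.card k) (h1 k) e).symm)
    simp only [TT_match _ _ _ _ (hw _), this, sum_boole]
    congr 1
    rw [← Nat.card_congr (Equiv.subtypeSubtypeEquivSubtype (p := fun β : κ ≃ κ' =>
      ∀ k, (c' (β k)).1 = (c k).1) (q := fun β : κ ≃ κ' => ∀ k, c' (β k) = c k)
      fun h k => by rw [h])]
    exact (Nat.subtype_card _ (by simp)).symm
  · intro x hx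
    obtain ⟨v, hv⟩ := bruhat_PP (F := F) a b x
    obtain ⟨p, hp, p', hp', e⟩ := id hv
    rw [e, hT _ hp _ hp'] at hx
    obtain ⟨β, hβ⟩ := exists_match h.surj h'.surj h.isChar
      (fun k => isCusp_ev (h.cusp k) (h.card k)) h'.isChar
      (fun k => isCusp_ev (h'.cusp k) (h'.card k)) v hx
    let β' : W := ⟨β, fun k => by
      rw [← h.card, ← h'.card, Fintype.card_congr (blkEquiv v β hβ k)]⟩
    refine ⟨β', DC.trans ?_ hv, fun γ hγ => ?_⟩
    · refine ⟨permGL F (v * (w β')⁻¹), fun i j hij => ?_, 1, one_mem _, by simp⟩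
      rw [permGL_apply, if_neg]
      rintro rfl
      have h1 := hβ ((v * (w β')⁻¹) j)
      have h2 := hw β' j
      simp only [Equiv.Perm.coe_mul, Function.comp, Equiv.symm_apply_apply, Equiv.Perm.coe_inv] at h1
      rw [h1] at h2
      exact hij.ne' (β.injective h2)
    · exact Subtype.ext (match_unique h.surj (hw γ) hβ (hγ.trans hv.symm))

end Cfsg.Agent.H6.HC
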