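import Cfsg.Agent.H6.HC3

/-! Every irreducible character of `GL` lies in a Harish-Chandra series. -/

set_option autoImplicit false
set_option linter.unusedSectionVars false
open Finset
open scoped ComplexConjugate MatrixGroups Matrix

namespace Cfsg.Agent.H6.HC

open Cfsg Cfsg.Agent.H1

variable {F : Type*} [Field F] [Fintype F] [DecidableEq F]
variable {ι ι' ι'' : Type} [Fintype ι] [DecidableEq ι] [Fintype ι'] [DecidableEq ι'] [Fintype ι'']
  [DecidableEq ι''] {κ κ' : Type} [Fintype κ] [LinearOrder κ] [Fintype κ'] [LinearOrder κ']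

theorem avg_Th {a : ι → κ} (f : ∀ k, GL (Blk a k) F → ℂ) :
    (Nat.card (Par F a) : ℂ)⁻¹ * ∑ g, Th a f g =
      ∏ k, (Nat.card (GL (Blk a k) F) : ℂ)⁻¹ * ∑ x, f k x := by
  rw [sum_subgroup (Par F a) (Th_of_not_mem f), ← avg_prod _ (proj_surj a)]
  simp only [Th_coe]

theorem Th_mul_Th {a : ι → κ} (f f' : ∀ k, GL (Blk a k) F → ℂ) (g : GL ι F) :
    Th a f g * conj (Th a f' g) = Th a (fun k x => f k x * conj (f' k x)) g := by
  by_cases h : g ∈ Par F a
  · simp only [Th_of_mem _ h, prod_mul_distrib, map_prod]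
  · simp only [Th_of_not_mem _ _ h, zero_mul]

theorem isIrr_Th {a : ι → κ} {f : ∀ k, GL (Blk a k) F → ℂ} (hf : ∀ k, IsIrrCharacter _ (f k)) :
    IsIrrCharacter (Par F a) (fun g => Th a f g) := by
  refine IsCharacter.isIrr (isCharacter_Th fun k => IsIrrCharacter.isCharacter (hf k)) ?_
  simp only [classInner, Th_mul_Th]
  rw [← sum_subgroup (Par F a) (Th_of_not_mem _), avg_Th]
  exact prod_eq_one fun k _ => IsIrrCharacter.classInner_self (hf k)

open Classical in
/-- Refinement of a labelling by a predicate. -/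
noncomputable def refine (a : ι → κ) (P : ι → Prop) (i : ι) : κ ×ₗ Bool := toLex (a i, decide (¬ P i))

theorem refine_lt (a : ι → κ) (P : ι → Prop) (i j : ι) :
    refine a P i < refine a P j ↔ a i < a j ∨ a i = a j ∧ P i ∧ ¬ P j := by
  simp only [refine, Prod.Lex.toLex_lt_toLex]
  by_cases h1 : P i <;> by_cases h2 : P j <;> simp [h1, h2]

theorem mem_Rad_refine {a : ι → κ} {P : ι → Prop} {g : GL ι F} : g ∈ Rad F (refine a P) ↔
    ∃ h : g ∈ Par F a, ∀ k, proj F a ⟨g, h⟩ k ∈ Rad2 F (fun x : Blk a k => P x.1) := by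
  simp only [mem_Rad, mem_Rad2, refine_lt, proj_apply]
  constructor
  · intro h
    refine ⟨fun i j hij => ?_, fun k i j hij => ?_⟩
    · rw [h i j (by rintro (h | ⟨h, -⟩); exacts [lt_asymm h hij, hij.ne' h]), Matrix.one_apply_ne]
      rintro rfl
      exact lt_irrefl _ hij
    · rw [h i j (by
        rw [i.2, j.2]
        rintro (h | ⟨-, h⟩)
        exacts [lt_irrefl _ h, hij h])]
      simp [Matrix.one_apply, Subtype.ext_iff]
  · rintro ⟨h, h'⟩ i j hij
    rw [not_or, not_lt] at hij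
    rcases hij.1.eq_or_lt with e | e
    · rw [h' (a i) ⟨i, rfl⟩ ⟨j, e⟩ fun h => hij.2 ⟨e.symm, h⟩]
      simp [Matrix.one_apply, Subtype.ext_iff]
    · rw [h e, Matrix.one_apply_ne]
      rintro rfl
      exact lt_irrefl _ e

theorem Rad_congr {a : ι → κ} {b : ι → κ'} (h : ∀ i j, a i < a j ↔ b i < b j) : Rad F a = Rad F b := by
  ext g
  simp only [mem_Rad, h]

theorem sum_Rad2_true {p : ι → Prop} (hp : ∀ i, p i) (f : GL ι F → ℂ) : ∑ u : Rad2 F p, f u = f 1 := by
  rw [sum_eq_single 1]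
  · rfl
  · intro u _ hu
    exact absurd (Subtype.ext (Units.ext (Matrix.ext fun i j =>
      mem_Rad2.1 u.2 i j fun h => h.2 (hp j)))) hu
  · simp

theorem sum_refine {a : ι → κ} (P : ι → Prop) (f : ∀ k, GL (Blk a k) F → ℂ) :
    (Nat.card (Par F a) : ℂ)⁻¹ * ∑ u : Rad F (refine a P), Th a f u =
      ∏ k, (Nat.card (GL (Blk a k) F) : ℂ)⁻¹ * ∑ x : Rad2 F (fun x : Blk a k => P x.1), f k x := by
  classical
  have := avg_Th (a := a) (fun k x => if x ∈ Rad2 F (fun x : Blk a k => P x.1) then f k x else 0)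
  rw [sum_subgroup (Rad F (refine a P))] at this
  · convert this using 3
    · rename_i u _
      obtain ⟨h, h'⟩ := mem_Rad_refine.1 u.2
      rw [Th_of_mem _ h, Th_of_mem _ h]
      exact prod_congr rfl fun k _ => (if_pos (h' k)).symm
    · rename_i k _
      rw [sum_subgroup (Rad2 F (fun x : Blk a k => P x.1)) (fun g hg => if_neg hg)]
      exact sum_congr rfl fun x _ => (if_pos x.2).symm
  · intro g hg
    by_cases h : g ∈ Par F a
    · rw [mem_Rad_refine, not_exists] at hg
      obtain ⟨k, hk⟩ := not_forall.1 (hg h)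
      rw [Th_of_mem _ h]
      exact prod_eq_zero (mem_univ k) (if_neg hk)
    · exact Th_of_not_mem _ _ h

theorem Rad_refine_true (a : ι → κ) : Rad F (refine a fun _ => True) = Rad F a :=
  Rad_congr fun i j => by simp [refine_lt]

theorem exists_family {χ : GL ι F → ℂ} (a : ι → κ) (h : ∑ u : Rad F a, χ u ≠ 0) :
    ∃ ρ : ∀ k, IrrCharacter (GL (Blk a k) F), ∑ g, χ g * conj (Th a (fun k => (ρ k).1) g) ≠ 0 := by
  classical
  by_contra! H
  have h1 : ∀ g, Th a (fun k => regChar _) g =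
      ∑ ρ : ∀ k, IrrCharacter (GL (Blk a k) F), (∏ k, (ρ k).1 1) * Th a (fun k => (ρ k).1) g := by
    intro g
    by_cases hg : g ∈ Par F a
    · simp only [Th_of_mem _ hg, regChar_eq_sum, Finset.sum_apply, Pi.smul_apply, smul_eq_mul,
        Fintype.prod_sum, prod_mul_distrib]
    · simp only [Th_of_not_mem _ _ hg, mul_zero, sum_const_zero]
  have h2 : ∑ g, χ g * conj (Th a (fun k => regChar _) g) = 0 := by
    simp only [h1, map_sum, map_mul, mul_sum]
    rw [sum_comm]
    refine sum_eq_zero fun ρ _ => ?_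
    simp only [mul_left_comm (χ _), ← mul_sum, H, mul_zero]
  rw [sum_subgroup (Rad F a)] at h2
  · have : ∀ u : Rad F a, conj (Th a (fun k => regChar _) u.1) =
        ∏ k, (Nat.card (GL (Blk a k) F) : ℂ) := by
      intro u
      rw [Th_of_mem _ (Rad_le_Par a u.2), proj_rad u.2]
      simp [regChar]
    simp only [this, ← sum_mul] at h2
    exact mul_ne_zero h (prod_ne_zero_iff.2 fun k _ => card_ne_zero') h2
  · intro g hg
    by_cases h : g ∈ Par F a
    · rw [← Rad_refine_true, mem_Rad_refine, not_exists] at hg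
      obtain ⟨k, hk⟩ := not_forall.1 (hg h)
      rw [Th_of_mem _ h, prod_eq_zero (mem_univ k), map_zero, mul_zero]
      rw [regChar, if_neg]
      intro h1
      exact hk (by rw [h1]; exact one_mem _)
    · rw [Th_of_not_mem _ _ h, map_zero, mul_zero]

theorem sum_refine_ne_zero {χ : GL ι F → ℂ} (hχ : IsCharacter _ χ) {a : ι → κ}
    {ρ : ∀ k, GL (Blk a k) F → ℂ} (hρ : ∀ k, IsIrrCharacter _ (ρ k))
    (h : ∑ g, χ g * conj (Th a ρ g) ≠ 0) (P : ι → Prop)
    (hP : ∀ k, ∑ x : Rad2 F (fun x : Blk a k => P x.1), ρ k x ≠ 0) :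
    ∑ u : Rad F (refine a P), χ u ≠ 0 := by
  have hle : Rad F (refine a P) ≤ Par F a := fun g hg => (mem_Rad_refine.1 hg).1
  have h1 := IsCharacter.sub_irr (IsCharacter.comp hχ (Par F a).subtype) (isIrr_Th hρ) (by
    rw [sum_subgroup (Par F a) (fun g hg => by rw [Th_of_not_mem _ _ hg, map_zero, mul_zero])] at h
    exact mul_ne_zero (inv_ne_zero card_ne_zero') h)
  obtain ⟨m, hm⟩ := char_sum_nat h1 (Subgroup.inclusion hle)
  obtain ⟨k, hk⟩ := char_sum_nat (IsIrrCharacter.isCharacter (isIrr_Th hρ)) (Subgroup.inclusion hle)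
  simp only [Pi.sub_apply, Subgroup.coe_subtype, Subgroup.coe_inclusion, sum_sub_distrib] at hm hk
  have h2 : k ≠ 0 := by
    rintro rfl
    have := sum_refine (F := F) P ρ
    rw [hk, Nat.cast_zero, mul_zero] at this
    exact prod_ne_zero_iff.2 (fun k _ => mul_ne_zero (inv_ne_zero card_ne_zero') (hP k)) this.symm
  rw [show ∑ u : Rad F (refine a P), χ u = ((m + k : ℕ) : ℂ) by push_cast; linear_combination hm + hk]
  exact_mod_cast (by omega : m + k ≠ 0)

theorem exists_datum {χ : GL ι F → ℂ} (hχ : IsIrrCharacter _ χ) :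
    ∃ (κ : Type) (_ : Fintype κ) (_ : LinearOrder κ) (a : ι → κ) (c : κ → Irr F),
      Datum a c ∧ classInner χ (hcD a c) ≠ 0 := by
  classical
  let S : Set ℕ := {t | ∃ (κ : Type) (_ : Fintype κ) (_ : LinearOrder κ) (a : ι → κ),
    ∑ u : Rad F a, χ u ≠ 0 ∧ (univ.filter fun p : ι × ι => a p.1 < a p.2).card = t}
  have hb : BddAbove S := ⟨Fintype.card (ι × ι), by
    rintro _ ⟨κ, _, _, a, -, rfl⟩
    exact card_le_univ _⟩
  have hne : S.Nonempty := ⟨_, Unit, inferInstance, inferInstance, fun _ => (), by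
    have : Rad F (fun _ : ι => ()) = Rad2 F (fun _ : ι => True) := by
      ext g; simp [mem_Rad, mem_Rad2]
    rw [this, sum_Rad2_true (fun _ => trivial)]
    exact IsIrrCharacter.one_ne_zero hχ, rfl⟩
  obtain ⟨κ₀, _, _, a₀, h₀, e₀⟩ := Nat.sSup_mem hne hb
  let a : ι → Set.range a₀ := Set.rangeFactorization a₀
  have hr : Rad F a₀ = Rad F a := Rad_congr fun i j => Iff.rfl
  rw [hr] at h₀
  obtain ⟨ρ, hρ⟩ := exists_family a h₀
  have hcu : ∀ k, IsCusp (ρ k).1 := by
    rintro k p ⟨i, hi⟩ ⟨j, hj⟩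
    by_contra hne
    let P : ι → Prop := fun x => ∀ h : a x = k, p ⟨x, h⟩
    have h1 := sum_refine_ne_zero (IsIrrCharacter.isCharacter hχ) (fun k => (ρ k).2) hρ P (by
      intro l
      by_cases hl : l = k
      · subst hl
        have : (fun x : Blk a l => P x.1) = p := by
          funext x
          exact propext ⟨fun h => h x.2, fun h _ => h⟩
        rwa [this]
      · rw [sum_Rad2_true (fun x h => absurd (x.2.symm.trans h) hl)]
        exact IsIrrCharacter.one_ne_zero (ρ l).2)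
    have h2 := le_csSup hb (show _ ∈ S from ⟨_, inferInstance, inferInstance, refine a P, h1, rfl⟩)
    rw [← e₀] at h2
    refine absurd h2 (not_le.2 (card_lt_card ⟨fun x hx => ?_, fun h => ?_⟩))
    · simp only [mem_filter, mem_univ, true_and, refine_lt] at hx ⊢
      exact Or.inl hx
    · have := @h (i.1, j.1) (by
        simp only [mem_filter, mem_univ, true_and, refine_lt]
        exact Or.inr ⟨i.2.trans j.2.symm, fun _ => hi, fun h => hj (h j.2)⟩)
      simp only [mem_filter, mem_univ, true_and] at this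
      exact this.ne (congrArg Subtype.val (i.2.trans j.2.symm))
  choose c h1 h2 h3 using fun k => exists_ev (ρ k).2
  refine ⟨_, inferInstance, inferInstance, a, c,
    ⟨Set.rangeFactorization_surjective, h1, fun k => h3 k (hcu k)⟩, ?_⟩
  rw [hcD, hc, inner_ind_right _ _ (IsCharacter.isClassFunction (IsIrrCharacter.isCharacter hχ))]
  simp only [h2]
  exact mul_ne_zero (inv_ne_zero card_ne_zero') hρ

theorem hcD_eq {n : ℕ} {a : Fin n → κ} {b : Fin n → κ'} {c : κ → Irr F} {c' : κ' → Irr F}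
    (h : Datum a c) (h' : Datum b c') (β : κ ≃ κ') (hβ : ∀ k, c' (β k) = c k) :
    hcD a c = hcD b c' := by
  have e1 : Nat.card {γ : κ ≃ κ // ∀ k, c (γ k) = c k} = Nat.card {γ : κ ≃ κ' // ∀ k, c' (γ k) = c k} :=
    Nat.card_congr ((Equiv.equivCongr (Equiv.refl κ) β).subtypeEquiv fun γ => by simp [hβ])
  have e2 : Nat.card {γ : κ ≃ κ // ∀ k, c (γ k) = c k} = Nat.card {γ : κ' ≃ κ // ∀ k, c (γ k) = c' k} :=
    Nat.card_congr ((Equiv.equivCongr β (Equiv.refl κ)).subtypeEquiv fun γ => by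
      simp [β.surjective.forall, hβ])
  have e3 : Nat.card {γ : κ ≃ κ // ∀ k, c (γ k) = c k} = Nat.card {γ : κ' ≃ κ' // ∀ k, c' (γ k) = c' k} :=
    Nat.card_congr ((Equiv.equivCongr β β).subtypeEquiv fun γ => by
      simp [β.surjective.forall, hβ])
  refine sub_eq_zero.1 (classInner_self_eq_zero ?_)
  rw [classInner_sub_left, classInner_sub_right, classInner_sub_right, inner_hcD h h, inner_hcD h h',
    inner_hcD h' h, inner_hcD h' h', ← e1, ← e2, ← e3]
  ring

theorem exists_equiv_of_inner {n : ℕ} {a : Fin n → κ} {b : Fin n → κ'} {c : κ → Irr F}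
    {c' : κ' → Irr F} (h : Datum a c) (h' : Datum b c') (hi : classInner (hcD a c) (hcD b c') ≠ 0) :
    ∃ β : κ ≃ κ', ∀ k, c' (β k) = c k := by
  rw [inner_hcD h h'] at hi
  obtain ⟨β, hβ⟩ := (Nat.card_pos_iff.1 (Nat.pos_of_ne_zero (by exact_mod_cast hi))).1
  exact ⟨β, hβ⟩

end Cfsg.Agent.H6.HC
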