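import Cfsg.Agent.H6.HC4

/-! The Gelfand-Graev character of `GL` and Harish-Chandra induction. -/

set_option autoImplicit false
set_option linter.unusedSectionVars false
open Finset
open scoped ComplexConjugate MatrixGroups Matrix

namespace Cfsg.Agent.H6.HC

open Cfsg Cfsg.Agent.H1

variable {F : Type*} [Field F] [Fintype F] [DecidableEq F] (ψ : AddChar F ℂ)
variable {ι ι' : Type} [Fintype ι] [DecidableEq ι] [Fintype ι'] [DecidableEq ι'] [LinearOrder ι]
  [LinearOrder ι'] {κ κ' : Type} [Fintype κ] [LinearOrder κ] [Fintype κ'] [LinearOrder κ']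

open Classical in
/-- The sum of the entries just above the diagonal. -/
noncomputable def sup (M : Matrix ι ι F) : F := ∑ i, ∑ j, if i ⋖ j then M i j else 0

theorem mul_apply_covBy {u v : GL ι F} (hu : u ∈ UU F ι) (hv : v ∈ UU F ι) {i j : ι} (h : i ⋖ j) :
    (u * v).1 i j = u.1 i j + v.1 i j := by
  rw [Units.val_mul, Matrix.mul_apply, ← sum_subset (subset_univ {i, j}), sum_pair h.ne,
    mem_UU.1 hu i i (lt_irrefl _), mem_UU.1 hv j j (lt_irrefl _)]
  · simp [add_comm]
  · intro k _ hk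
    simp only [mem_insert, mem_singleton, not_or] at hk
    by_cases h1 : i < k
    · rw [mem_UU.1 hv k j (h.2 h1), Matrix.one_apply_ne hk.2, mul_zero]
    · rw [mem_UU.1 hu i k h1, Matrix.one_apply_ne (Ne.symm hk.1), zero_mul]

theorem sup_mul {u v : GL ι F} (hu : u ∈ UU F ι) (hv : v ∈ UU F ι) :
    sup (u * v).1 = sup u.1 + sup v.1 := by
  simp only [sup, ← sum_add_distrib]
  refine sum_congr rfl fun i _ => sum_congr rfl fun j _ => ?_
  split_ifs with h
  · exact mul_apply_covBy hu hv h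
  · simp

theorem sup_one : sup (1 : Matrix ι ι F) = 0 :=
  sum_eq_zero fun i _ => sum_eq_zero fun j _ => by
    split_ifs with h
    · exact Matrix.one_apply_ne h.ne
    · rfl

/-- The non-degenerate character of the unitriangular group. -/
noncomputable def psiHom (ι : Type) [Fintype ι] [DecidableEq ι] [LinearOrder ι] : UU F ι →* ℂ where
  toFun u := ψ (sup u.1.1)
  map_one' := by simp [sup_one]
  map_mul' u v := by rw [← AddChar.map_add_eq_mul, ← sup_mul u.2 v.2]; rfl

open Classical in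
/-- The non-degenerate character extended by zero. -/
noncomputable def Ps (g : GL ι F) : ℂ := if g ∈ UU F ι then ψ (sup g.1) else 0

theorem Ps_of_mem {g : GL ι F} (h : g ∈ UU F ι) : Ps ψ g = ψ (sup g.1) := if_pos h

theorem Ps_of_not_mem (g : GL ι F) (h : g ∉ UU F ι) : Ps ψ g = 0 := if_neg h

theorem Ps_mul (g : GL ι F) {u : GL ι F} (h : u ∈ UU F ι) : Ps ψ (g * u) = Ps ψ g * ψ (sup u.1) := by
  by_cases hg : g ∈ UU F ι
  · rw [Ps_of_mem ψ hg, Ps_of_mem ψ (mul_mem hg h), sup_mul hg h, AddChar.map_add_eq_mul]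
  · rw [Ps_of_not_mem ψ _ hg, Ps_of_not_mem, zero_mul]
    rwa [Subgroup.mul_mem_cancel_right _ h]

theorem Ps_conj (u : GL ι F) (h : u ∈ UU F ι) (g : GL ι F) : Ps ψ (u⁻¹ * g * u) = Ps ψ g := by
  by_cases hg : g ∈ UU F ι
  · have := class_conj (IsCharacter.isClassFunction (isCharacter_hom (psiHom ψ ι))) ⟨g, hg⟩ ⟨u, h⟩
    rw [Ps_of_mem ψ hg, Ps_of_mem ψ (mul_mem (mul_mem (inv_mem h) hg) h)]
    exact this
  · rw [Ps_of_not_mem ψ _ hg, Ps_of_not_mem]
    rwa [Subgroup.mul_mem_cancel_right _ h, Subgroup.mul_mem_cancel_left _ (inv_mem h)]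

/-- The Gelfand-Graev character. -/
noncomputable def Gam (ι : Type) [Fintype ι] [DecidableEq ι] [LinearOrder ι] : GL ι F → ℂ :=
  ind (UU F ι) (Ps ψ)

theorem isCharacter_Gam : IsCharacter _ (Gam ψ ι) :=
  isCharacter_ind _ (Ps_of_not_mem ψ) (by
    convert isCharacter_hom (psiHom ψ ι) using 1
    funext u
    exact Ps_of_mem ψ u.2)

/-- The multiplicity of the non-degenerate character. -/
noncomputable def del (φ : GL ι F → ℂ) : ℂ := (Nat.card (UU F ι) : ℂ)⁻¹ * ∑ g, φ g * conj (Ps ψ g)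

theorem del_eq {φ : GL ι F → ℂ} (hφ : IsClassFunction _ φ) : del ψ φ = classInner φ (Gam ψ ι) :=
  (inner_ind_right _ _ hφ).symm

theorem del_eq_sum (φ : GL ι F → ℂ) :
    del ψ φ = (Nat.card (UU F ι) : ℂ)⁻¹ * ∑ u : UU F ι, φ u * conj (ψ (sup u.1.1)) := by
  rw [del, sum_subgroup (UU F ι) (fun g hg => by rw [Ps_of_not_mem ψ _ hg, map_zero, mul_zero])]
  simp only [Ps_of_mem ψ (Subtype.prop _)]

theorem reGL_mem_UU (o : ι ≃o ι') (g : GL ι F) : g ∈ UU F ι ↔ reGL F o.toEquiv g ∈ UU F ι' := by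
  simp only [mem_UU, reGL_apply, o.surjective.forall]
  simp [Matrix.one_apply]

theorem Ps_reGL (o : ι ≃o ι') (g : GL ι F) : Ps ψ (reGL F o.toEquiv g) = Ps ψ g := by
  by_cases hg : g ∈ UU F ι
  · rw [Ps_of_mem ψ hg, Ps_of_mem ψ ((reGL_mem_UU o g).1 hg)]
    congr 1
    simp only [sup, ← o.toEquiv.sum_comp, reGL_apply]
    refine sum_congr rfl fun i _ => sum_congr rfl fun j _ => ?_
    have : o i ⋖ o j ↔ i ⋖ j := apply_covBy_apply_iff o
    classical exact if_congr this (by simp) rfl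
  · rw [Ps_of_not_mem ψ _ hg, Ps_of_not_mem ψ _ (by rwa [← reGL_mem_UU])]

theorem card_UU_congr (o : ι ≃o ι') : Nat.card (UU F ι) = Nat.card (UU F ι') :=
  Nat.card_congr ((reGL F o.toEquiv).toEquiv.subtypeEquiv (reGL_mem_UU o))

/-- The order isomorphism between two finite linear orders of the same size. -/
noncomputable def ordIso (e : ι ≃ ι') : ι ≃o ι' :=
  (Fintype.orderIsoFinOfCardEq ι rfl).symm.trans
    (Fintype.orderIsoFinOfCardEq ι' (Fintype.card_congr e).symm)

theorem del_reGL {φ : GL ι' F → ℂ} (hφ : IsClassFunction _ φ) (e : ι ≃ ι') :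
    del ψ (fun g => φ (reGL F e g)) = del ψ φ := by
  simp only [del, class_reGL hφ e (ordIso e).toEquiv, card_UU_congr (ordIso e)]
  congr 1
  exact Fintype.sum_equiv (reGL F (ordIso e).toEquiv).toEquiv _ _ fun g => by
    rw [← Ps_reGL ψ (ordIso e)]; rfl

theorem Gam_reGL (e : ι ≃ ι') (g : GL ι F) : Gam ψ ι' (reGL F e g) = Gam ψ ι g := by
  rw [class_reGL (IsCharacter.isClassFunction (isCharacter_Gam ψ)) e (ordIso e).toEquiv]
  simp only [Gam, ind, card_UU_congr (ordIso e)]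
  congr 1
  exact (Fintype.sum_equiv (reGL F (ordIso e).toEquiv).toEquiv _ _ fun g => by
    rw [← Ps_reGL ψ (ordIso e)]; simp).symm

/-- Elementary transvections. -/
def tv {i j : ι} (h : i ≠ j) (c : F) : GL ι F :=
  ⟨Matrix.transvection i j c, Matrix.transvection i j (-c),
    by simp [Matrix.transvection_mul_transvection_same _ _ h],
    by simp [Matrix.transvection_mul_transvection_same _ _ h]⟩

theorem tv_apply {i j : ι} (h : i ≠ j) (c : F) (k l : ι) :
    (tv h c).1 k l = (1 : Matrix ι ι F) k l + if i = k ∧ j = l then c else 0 := by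
  simp [tv, Matrix.transvection, Matrix.single_apply]

theorem tv_mem {i j : ι} (h : i < j) (c : F) : tv h.ne c ∈ UU F ι := mem_UU.2 fun k l hkl => by
  rw [tv_apply, if_neg, add_zero]
  rintro ⟨rfl, rfl⟩
  exact hkl h

theorem sup_tv {i j : ι} (h : i ≠ j) (c : F) [Decidable (i ⋖ j)] :
    sup (tv h c).1 = if i ⋖ j then c else 0 := by
  have : ∀ k l, k ⋖ l → (1 : Matrix ι ι F) k l = 0 := fun k l h => Matrix.one_apply_ne h.ne
  rw [sup, sum_eq_single i, sum_eq_single j]
  · split_ifs with h'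
    · simp [tv_apply, this _ _ h']
    · rfl
  · intro l _ hl
    split_ifs with h'
    · simp [tv_apply, this _ _ h', hl.symm]
    · rfl
  · simp
  · intro k _ hk
    refine sum_eq_zero fun l _ => ?_
    split_ifs with h'
    · simp [tv_apply, this _ _ h', hk.symm]
    · rfl
  · simp

variable {ψ}

theorem sum_conj_psi (hψ : ψ ≠ 1) : ∑ c, conj (ψ c) = 0 := by
  rw [← map_sum, AddChar.sum_eq_zero_of_ne_one hψ, map_zero]

theorem TT_Ps_eq_zero (hψ : ψ ≠ 1) {f : GL ι F → ℂ} {x : GL ι F} {i j : ι} (h : i ⋖ j)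
    (hf : ∀ g c, f (g * (x * tv h.ne c * x⁻¹)) = f g) : TT f (Ps ψ) x = 0 := by
  classical
  refine sum_eq_zero_of_avg (fun c : F => x * tv h.ne c * x⁻¹) _ fun g => ?_
  have : ∀ c, x⁻¹ * (g * (x * tv h.ne c * x⁻¹)) * x = x⁻¹ * g * x * tv h.ne c := fun c => by group
  simp only [hf, this, Ps_mul ψ _ (tv_mem h.lt _), sup_tv, if_pos h, map_mul, ← mul_sum,
    sum_conj_psi hψ, mul_zero]

theorem sup_eq_sum {b : ι → κ} (hb : Antitone b) (u : Par F b) :
    sup u.1.1 = ∑ k, sup (proj F b u k).1 := by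
  classical
  simp only [sup, proj_apply]
  rw [← Fintype.sum_fiberwise b]
  refine sum_congr rfl fun k _ => sum_congr rfl fun i _ => ?_
  rw [← sum_subset (subset_univ (univ.filter fun l => b l = k)), sum_subtype (p := fun l => b l = k) _ (by simp)]
  · refine sum_congr rfl fun j _ => ?_
    have : i.1 ⋖ j.1 ↔ i ⋖ j := Set.OrdConnected.apply_covBy_apply_iff (OrderEmbedding.subtype (b · = k)) (by
      refine ⟨?_⟩
      rintro _ ⟨x, rfl⟩ _ ⟨y, rfl⟩ z hz
      exact ⟨⟨z, le_antisymm ((hb hz.1).trans x.2.le) (y.2.ge.trans (hb hz.2))⟩, rfl⟩)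
    simp only [this]
  · intro j _ hj
    split_ifs with h
    · exact u.2 (lt_of_le_of_ne (hb h.le) (by simpa [i.2] using hj))
    · rfl

theorem TT_one {b : ι → κ} (hb : Antitone b) (f : ∀ k, GL (Blk b k) F → ℂ) :
    (Nat.card {g // g ∈ Par F b ∧ 1⁻¹ * g * 1 ∈ UU F ι} : ℂ)⁻¹ * TT (Th b f) (Ps ψ) 1 =
      ∏ k, del ψ (f k) := by
  set H := Mk (Par F b) (UU F ι) 1
  have hle : H ≤ Par F b := fun g hg => hg.1
  have hU : ∀ g ∈ H, g ∈ UU F ι := fun g hg => by simpa using hg.2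
  let π : H →* ∀ k, UU F (Blk b k) := MonoidHom.pi fun k =>
    ((Pi.evalMonoidHom _ k).comp ((proj F b).comp (Subgroup.inclusion hle))).codRestrict _ fun g =>
      mem_UU.2 fun i j hij => (mem_UU.1 (hU _ g.2) i.1 j.1 hij).trans
        (by simp [Matrix.one_apply, Subtype.ext_iff])
  have hs : Function.Surjective π := by
    intro l
    refine ⟨⟨diagB F b fun k => l k, diagB_mem b _, ?_⟩, funext fun k => Subtype.ext
      (congrFun (proj_diagB b fun k => (l k).1) k)⟩
    rw [inv_one, one_mul, mul_one]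
    refine mem_UU.2 fun i j hij => ?_
    by_cases h : b i = b j
    · rw [diagB_apply_eq b _ (b j) ⟨i, h⟩ ⟨j, rfl⟩, mem_UU.1 (l _).2 _ _ hij]
      simp [Matrix.one_apply]
    · rw [diagB_apply_ne b _ h, Matrix.one_apply_ne fun h' => h (congrArg b h')]
  have := avg_prod _ hs (fun k u => f k u * conj (ψ (sup u.1.1)))
  simp only [del_eq_sum]
  rw [← this, TT, sum_subgroup H]
  · congr 1
    refine sum_congr rfl fun g _ => ?_
    rw [inv_one, one_mul, mul_one, Th_of_mem f (hle g.2), prod_mul_distrib, ← map_prod,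
      Ps_of_mem ψ (hU _ g.2), sup_eq_sum hb ⟨_, hle g.2⟩]
    congr 2
    exact map_prod ψ.toMonoidHom (fun k => Multiplicative.ofAdd _) univ
  · intro g hg
    by_cases h1 : g ∈ Par F b
    · rw [Ps_of_not_mem ψ _ (fun h2 => hg ⟨h1, h2⟩), map_zero, mul_zero]
    · rw [Th_of_not_mem f _ h1, zero_mul]

theorem del_hc_antitone (hψ : ψ ≠ 1) {n : ℕ} {b : Fin n → κ} (hb : Antitone b)
    {f : ∀ k, GL (Blk b k) F → ℂ} (hf : ∀ k, IsClassFunction _ (f k)) :
    del ψ (hc b f) = ∏ k, del ψ (f k) := by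
  have hT := fun p hp p' hp' x => TT_mul (h := p) (k := p') (Th_conj hf) (Ps_conj ψ) hp hp' x
  rw [hc, del_eq ψ (isClass_ind _ _), Gam, inner_ind_ind, mackey_sum _ _ _ hT (fun _ : Unit => 1)]
  · rw [Fintype.sum_unique, TT_one hb]
  · intro x hx
    obtain ⟨p, hp, w, u, hu, rfl⟩ := bruhat_PU (F := F) b x
    rw [hT _ hp _ hu] at hx
    have h1 : Antitone (b ∘ w) := by
      rw [antitone_iff_forall_covBy]
      intro i j hij
      by_contra h
      refine hx (TT_Ps_eq_zero hψ hij fun g c => Th_mul_rad f g (mem_Rad.2 fun k l hkl => ?_))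
      have := conj_permGL_apply w⁻¹ (tv (F := F) hij.ne c) k l
      rw [map_inv, inv_inv] at this
      rw [this, tv_apply, if_neg, add_zero]
      · simp [Matrix.one_apply]
      · rintro ⟨rfl, rfl⟩
        exact hkl (by simpa using h)
    have h2 : b ∘ w = b := Tuple.unique_antitone (τ := 1) h1 hb
    refine ⟨(), ⟨p * permGL F w, mul_mem hp fun i j hij => ?_, u, hu, by simp⟩, fun _ _ => rfl⟩
    rw [permGL_apply, if_neg]
    rintro rfl
    exact hij.ne' (congrFun h2 j)

theorem del_hc (hψ : ψ ≠ 1) {n : ℕ} (a : Fin n → κ)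
    {f : ∀ k, GL (Blk a k) F → ℂ} (hf : ∀ k, IsClassFunction _ (f k)) :
    del ψ (hc a f) = ∏ k, del ψ (f k) := by
  obtain ⟨σ, hσ⟩ := exists_antitone a
  let e : ∀ k, Blk (a ∘ σ) k ≃ Blk a k := fun k => σ.subtypeEquiv fun i => Iff.rfl
  have hm : ∀ g : GL (Fin n) F, g ∈ Par F a ↔ reGL F σ.symm g ∈ Par F (a ∘ σ) := fun g => by
    rw [mem_Par, mem_Par]
    exact ⟨fun h i j hij => h _ _ hij, fun h i j hij => by
      simpa [reGL_apply] using h (σ.symm i) (σ.symm j) (by simpa using hij)⟩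
  have h1 : ∀ g, Th (a ∘ σ) (fun k x => f k (reGL F (e k) x)) (reGL F σ.symm g) = Th a f g := by
    intro g
    by_cases hg : g ∈ Par F a
    · rw [Th_of_mem _ hg, Th_of_mem _ ((hm g).1 hg)]
      refine prod_congr rfl fun k _ => congrArg _ (Units.ext (Matrix.ext fun i j => ?_))
      simp [reGL_apply, proj_apply, e]
    · rw [Th_of_not_mem _ _ hg, Th_of_not_mem _ _ (by rwa [← hm])]
  have h2 : hc a f = hc (a ∘ σ) (fun k x => f k (reGL F (e k) x)) := by
    funext g
    simp only [hc, ind, Nat.card_congr ((reGL F σ.symm).toEquiv.subtypeEquiv hm)]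
    congr 1
    rw [← sum_mul_right (fun x => Th (a ∘ σ) _ (x⁻¹ * g * x)) (permGL F σ)]
    exact sum_congr rfl fun x _ => by rw [← h1, ← conj_permGL]; congr 1; group
  rw [h2, del_hc_antitone hψ hσ (f := fun k x => f k (reGL F (e k) x)) fun k =>
    IsClassFunction.comp (hf k) (reGL F (e k)).toMonoidHom]
  exact prod_congr rfl fun k _ => del_reGL ψ (hf k) _

end Cfsg.Agent.H6.HC
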