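import Cfsg.Agent.H6.HC5

/-! The mirabolic recursion: degrees of cuspidal characters and the norm of the Gelfand-Graev
character. -/

set_option autoImplicit false
set_option linter.unusedSectionVars false
open Finset
open scoped ComplexConjugate MatrixGroups Matrix

namespace Cfsg.Agent.H6.HC

open Cfsg Cfsg.Agent.H1

variable {F : Type*} [Field F] [Fintype F] [DecidableEq F] {ψ : AddChar F ℂ} {n : ℕ}

/-- Unitriangular matrices with the first `m` columns trivial. -/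
def NN (F : Type*) [Field F] [Finite F] (n m : ℕ) : Subgroup (GL (Fin n) F) :=
  Pat F (fun i j => i < j ∧ m ≤ j.val) fun _ _ _ h h' => ⟨h.1.trans h'.1, h'.2⟩

theorem mem_NN {m : ℕ} {g : GL (Fin n) F} :
    g ∈ NN F n m ↔ ∀ i j, ¬ (i < j ∧ m ≤ j.val) → g.1 i j = (1 : Matrix (Fin n) (Fin n) F) i j :=
  Iff.rfl

theorem NN_le_UU (m : ℕ) : NN F n m ≤ UU F (Fin n) := fun _ hg i j h => hg i j fun h' => h h'.1

theorem NN_succ_le (m : ℕ) : NN F n (m + 1) ≤ NN F n m := fun _ hg i j h =>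
  hg i j fun h' => h ⟨h'.1, by omega⟩

theorem NN_one : NN F n 1 = UU F (Fin n) := le_antisymm (NN_le_UU 1) fun _ hg i j h =>
  hg i j fun h' => h ⟨h', by have : i.val < j.val := h'; omega⟩

theorem NN_self : NN F n n = Rad2 F fun _ => True := by
  ext g
  simp only [mem_NN, mem_Rad2]
  refine forall₂_congr fun i j => ?_
  have := j.2
  simp only [not_true, and_false, not_false_eq_true, true_imp_iff]
  exact ⟨fun h => h (by omega), fun h _ => h⟩

/-- The two-block labelling. -/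
def lab (j₀ : Fin n) (i : Fin n) : Bool := decide (j₀ ≤ i)

theorem lab_false {j₀ i : Fin n} : lab j₀ i = false ↔ i < j₀ := by simp [lab]

theorem lab_true {j₀ i : Fin n} : lab j₀ i = true ↔ j₀ ≤ i := by simp [lab]

theorem sum_blk {ι κ : Type} [Fintype ι] [DecidableEq κ] (a : ι → κ) (k : κ) [Fintype (Blk a k)]
    (f : ι → F) (h : ∀ l, a l ≠ k → f l = 0) : ∑ l, f l = ∑ l : Blk a k, f l := by
  rw [← sum_subset (subset_univ (univ.filter fun l => a l = k)) fun l _ hl => h l (by simpa using hl)]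
  exact sum_subtype _ (by simp) _

theorem card_blk_false (j₀ : Fin n) : Fintype.card (Blk (lab j₀) false) = j₀.val := by
  rw [Fintype.card_of_subtype (Iio j₀) (by simp [lab_false]), Fin.card_Iio]

theorem card_blk_true (j₀ : Fin n) : Fintype.card (Blk (lab j₀) true) = n - j₀.val := by
  rw [Fintype.card_of_subtype (Ici j₀) (by simp [lab_true]), Fin.card_Ici]

theorem conj_emb (j₀ : Fin n) (z : GL (Blk (lab j₀) false) F) {v : GL (Fin n) F}
    (hv : v ∈ NN F n j₀) :
    (emb F _ false z * v * (emb F _ false z)⁻¹).1 = 1 + (emb F _ false z).1 * (v.1 - 1) := by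
  have h1 : (v.1 - 1) * (emb F _ false z⁻¹).1 = v.1 - 1 := by
    ext i j
    conv_rhs => rw [← Matrix.mul_one (v.1 - 1)]
    simp only [Matrix.mul_apply]
    refine sum_congr rfl fun k _ => ?_
    by_cases hk : k < j₀
    · rw [Matrix.sub_apply, hv i k (fun h => absurd hk (not_lt.2 h.2)), sub_self, zero_mul, zero_mul]
    · rw [emb_apply_ne _ _ _ (fun h => hk (lab_false.1 h.1))]
  have h2 : (emb F _ false z).1 * (emb F _ false z⁻¹).1 = 1 := by
    rw [← Units.val_mul, ← map_mul, mul_inv_cancel, map_one, Units.val_one]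
  rw [← map_inv, Units.val_mul, Units.val_mul]
  conv_rhs => rw [← h1]
  conv_rhs => lhs; rw [← h2]
  noncomm_ring

theorem conj_emb_ge (j₀ : Fin n) (z : GL (Blk (lab j₀) false) F) {v : GL (Fin n) F}
    (hv : v ∈ NN F n j₀) {i : Fin n} (hi : j₀ ≤ i) (j : Fin n) :
    (emb F _ false z * v * (emb F _ false z)⁻¹).1 i j = v.1 i j := by
  have : ∀ k, (emb F _ false z).1 i k = (1 : Matrix (Fin n) (Fin n) F) i k := fun k =>
    emb_apply_ne _ _ _ (fun h => absurd (lab_false.1 h.1) (not_lt.2 hi))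
  rw [conj_emb j₀ z hv, Matrix.add_apply, Matrix.mul_apply]
  simp only [this]
  rw [← Matrix.mul_apply, one_mul, Matrix.sub_apply, add_sub_cancel]

theorem conj_emb_lt (j₀ : Fin n) (z : GL (Blk (lab j₀) false) F) {v : GL (Fin n) F}
    (hv : v ∈ NN F n j₀) (i : Blk (lab j₀) false) (j : Fin n) :
    (emb F _ false z * v * (emb F _ false z)⁻¹).1 i j =
      (1 : Matrix (Fin n) (Fin n) F) i j + ∑ k, z.1 i k * (v.1 - 1) k j := by
  rw [conj_emb j₀ z hv, Matrix.add_apply, Matrix.mul_apply, sum_blk (lab j₀) false]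
  · simp only [emb_apply_eq]
  · intro k hk'
    rw [emb_apply_ne _ _ _ (fun h => hk' h.2), Matrix.one_apply_ne, zero_mul]
    rintro rfl
    exact hk' i.2

theorem conj_emb_mem (j₀ : Fin n) (z : GL (Blk (lab j₀) false) F) {v : GL (Fin n) F}
    (hv : v ∈ NN F n j₀) : emb F _ false z * v * (emb F _ false z)⁻¹ ∈ NN F n j₀ := by
  refine mem_NN.2 fun i j hij => ?_
  by_cases hi : i < j₀
  · rw [conj_emb_lt j₀ z hv ⟨i, lab_false.2 hi⟩, sum_eq_zero, add_zero]
    intro k _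
    rw [Matrix.sub_apply, hv _ _ fun h => hij ⟨hi.trans_le h.2, h.2⟩, sub_self, mul_zero]
  · rw [conj_emb_ge j₀ z hv (not_lt.1 hi), hv i j hij]

theorem exists_vecMul {ι : Type} [Fintype ι] [DecidableEq ι] (i₀ : ι) {l : ι → F} (hl : l ≠ 0) :
    ∃ z : GL ι F, Pi.single i₀ 1 ᵥ* z.1 = l := by
  obtain ⟨i, hi⟩ := Function.ne_iff.1 hl
  have h1 : ((1 : Matrix ι ι F).updateRow i l).det ≠ 0 := by
    have := Matrix.det_updateRow_sum (1 : Matrix ι ι F) i l
    rw [show ∑ k, l k • (1 : Matrix ι ι F) k = l by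
      funext j; simp [Finset.sum_apply, Matrix.one_apply]] at this
    simpa [this] using hi
  refine ⟨permGL F (Equiv.swap i₀ i) * Matrix.GeneralLinearGroup.mkOfDetNeZero _ h1, ?_⟩
  funext j
  have := permGL_mul_apply F ((1 : Matrix ι ι F).updateRow i l) (Equiv.swap i₀ i) i j
  rw [Equiv.swap_apply_right] at this
  rw [Matrix.single_one_vecMul]
  exact this.trans (by simp)

theorem recursion (hψ : ψ ≠ 1) {i₀ j₀ : Fin n} (h₀ : i₀ < j₀) (h : GL (Fin n) F → ℂ)
    (hh : ∀ z, ∀ v ∈ NN F n j₀, h (emb F (lab j₀) false z * v * (emb F _ false z)⁻¹) = h v) :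
    (Fintype.card F : ℂ) ^ j₀.val * ∑ v : NN F n (j₀ + 1), h v =
      ∑ v : NN F n j₀, h v + ((Fintype.card F : ℂ) ^ j₀.val - 1) *
        ∑ v : NN F n j₀, h v * conj (ψ (v.1.1 i₀ j₀)) := by
  classical
  have hI := card_blk_false j₀
  let S : (Blk (lab j₀) false → F) → ℂ := fun l =>
    ∑ v : NN F n j₀, h v * conj (ψ (∑ i, l i * v.1.1 i j₀))
  have h1 : ∑ l, S l = (Fintype.card F : ℂ) ^ j₀.val * ∑ v : NN F n (j₀ + 1), h v := by
    rw [sum_comm]
    have : ∀ v : NN F n j₀, ∑ l : Blk (lab j₀) false → F, h v * conj (ψ (∑ i, l i * v.1.1 i j₀)) =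
        if v.1 ∈ NN F n (j₀ + 1) then (Fintype.card F : ℂ) ^ j₀.val * h v else 0 := by
      intro v
      have e : ∀ l : Blk (lab j₀) false → F, ψ (∑ i, l i * v.1.1 i j₀) = ∏ i, ψ (l i * v.1.1 i j₀) :=
        fun l => map_prod ψ.toMonoidHom (fun k => Multiplicative.ofAdd _) univ
      simp only [e, ← mul_sum, ← map_sum]
      rw [← Fintype.prod_sum (fun (i : Blk (lab j₀) false) (c : F) => ψ (c * v.1.1 i j₀))]
      simp only [AddChar.sum_mulShift _ (AddChar.IsPrimitive.of_ne_one hψ)]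
      split_ifs with hv
      · rw [prod_congr rfl (g := fun _ => (Fintype.card F : ℂ)) fun i _ => by
          rw [mem_NN.1 hv i j₀ (by omega), Matrix.one_apply_ne (lab_false.1 i.2).ne]; simp]
        simp [hI, mul_comm]
      · obtain ⟨i, hi⟩ : ∃ i : Blk (lab j₀) false, v.1.1 i j₀ ≠ 0 := by
          by_contra! H
          refine hv (mem_NN.2 fun i j hij => ?_)
          by_cases hij' : i < j ∧ j₀.val ≤ j.val
          · obtain rfl : j = j₀ := Fin.ext (by omega)
            rw [H ⟨i, lab_false.2 hij'.1⟩, Matrix.one_apply_ne hij'.1.ne]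
          · exact v.2 i j hij'
        rw [prod_eq_zero (mem_univ i) (by simp [hi]), map_zero, mul_zero]
    simp only [this]
    rw [← sum_subgroup (NN F n j₀) (f := fun g => if g ∈ NN F n (j₀ + 1) then
      (Fintype.card F : ℂ) ^ j₀.val * h g else 0) fun g hg => if_neg fun h => hg (NN_succ_le _ h),
      sum_subgroup (NN F n (j₀ + 1)) fun g hg => if_neg hg, mul_sum]
    exact sum_congr rfl fun v _ => if_pos v.2
  have h2 : ∀ (l : Blk (lab j₀) false → F) (z : GL _ F), S (l ᵥ* z.1) = S l := by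
    intro l z
    symm
    refine (sum_subgroup_equiv (MulAut.conj (emb F (lab j₀) false z)) (NN F n j₀) (NN F n j₀)
      (fun g => ⟨conj_emb_mem j₀ z, fun hg => ?_⟩)
      (fun v => h v * conj (ψ (∑ i, l i * v.1 i j₀)))).symm.trans (sum_congr rfl fun v _ => ?_)
    · have := conj_emb_mem j₀ z⁻¹ hg
      rwa [map_inv, MulAut.conj_apply, show ∀ x : GL (Fin n) F, x⁻¹ * (x * g * x⁻¹) * x⁻¹⁻¹ = g by
        intro x; group] at this
    · rw [MulAut.conj_apply, hh z _ v.2]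
      congr 3
      have e : ∀ i : Blk (lab j₀) false, (1 : Matrix (Fin n) (Fin n) F) i j₀ = 0 := fun i =>
        Matrix.one_apply_ne (lab_false.1 i.2).ne
      simp only [conj_emb_lt j₀ z v.2]
      simp only [Matrix.sub_apply, e, zero_add, sub_zero, Matrix.vecMul,
        dotProduct, mul_sum, sum_mul, mul_assoc]
      exact sum_comm
  have h3 : ∀ l ∈ univ.erase 0, S l = ∑ v : NN F n j₀, h v * conj (ψ (v.1.1 i₀ j₀)) := by
    intro l hl
    obtain ⟨z, rfl⟩ := exists_vecMul (⟨i₀, lab_false.2 h₀⟩ : Blk (lab j₀) false) (mem_erase.1 hl).1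
    rw [h2]
    simp [S, Pi.single_apply]
  rw [← h1, ← add_sum_erase _ _ (mem_univ 0), sum_congr rfl h3, sum_const, card_erase_of_mem (mem_univ _),
    card_univ, Fintype.card_fun, hI, nsmul_eq_mul, Nat.cast_sub (Nat.one_le_pow _ _ Fintype.card_pos)]
  simp [S]

theorem card_NN (hψ : ψ ≠ 1) {i₀ j₀ : Fin n} (h₀ : i₀ ⋖ j₀) :
    (Nat.card (NN F n j₀) : ℂ) = (Fintype.card F : ℂ) ^ j₀.val * Nat.card (NN F n (j₀ + 1)) := by
  classical
  have := recursion hψ h₀.lt (fun _ => 1) (fun _ _ _ => rfl)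
  have hm : ∀ c : F, tv h₀.ne c ∈ NN F n j₀ := fun c => mem_NN.2 fun k l hkl => by
    rw [tv_apply, if_neg, add_zero]
    rintro ⟨rfl, rfl⟩
    exact hkl ⟨h₀.lt, le_rfl⟩
  rw [sum_eq_zero_of_avg (fun c : F => (⟨_, hm c⟩ : NN F n j₀)) (fun v => 1 * conj (ψ (v.1.1 i₀ j₀)))
    fun v => by
      simp only [Subgroup.coe_mul, mul_apply_covBy (NN_le_UU _ v.2) (tv_mem h₀.lt _) h₀, tv_apply,
        Matrix.one_apply_ne h₀.ne, and_self, if_true, zero_add, AddChar.map_add_eq_mul, map_mul,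
        ← mul_sum, sum_conj_psi hψ, mul_zero]] at this
  simpa using this.symm

/-- The superdiagonal sum of the lower right block. -/
noncomputable def supF (j₀ : Fin n) (g : GL (Fin n) F) : F := sup (g.1.toSquareBlock (lab j₀) true)

theorem supF_congr {j₀ : Fin n} {g h : GL (Fin n) F} (e : ∀ i, j₀ ≤ i → ∀ j, g.1 i j = h.1 i j) :
    supF j₀ g = supF j₀ h :=
  congrArg sup (Matrix.ext fun i _ => e _ (lab_true.1 i.2) _)

theorem sup_NN {i₀ j₀ : Fin n} (h₀ : i₀ ⋖ j₀) {v : GL (Fin n) F} (hv : v ∈ NN F n j₀) :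
    sup v.1 = supF j₀ v + v.1 i₀ j₀ := by
  classical
  rw [sup, ← Fintype.sum_fiberwise (lab j₀), Fintype.sum_bool]
  congr 1
  · refine sum_congr rfl fun i _ => ?_
    rw [sum_blk (lab j₀) true]
    · refine sum_congr rfl fun j _ => ?_
      have : i.1 ⋖ j.1 ↔ i ⋖ j := Set.OrdConnected.apply_covBy_apply_iff
        (OrderEmbedding.subtype (lab j₀ · = true)) (by
          refine ⟨?_⟩
          rintro _ ⟨x, rfl⟩ _ - z hz
          exact ⟨⟨z, lab_true.2 ((lab_true.1 x.2).trans hz.1)⟩, rfl⟩)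
      exact if_congr this rfl rfl
    · intro j hj
      exact if_neg fun h => hj (lab_true.2 ((lab_true.1 i.2).trans h.le))
  · have key : ∀ (i : Blk (lab j₀) false) (j : Fin n), ¬ (i.1 = i₀ ∧ j = j₀) →
        (if i.1 ⋖ j then v.1 i j else 0) = 0 := by
      intro i j hij
      split_ifs with h
      · rw [hv _ _ fun h' => hij ?_, Matrix.one_apply_ne h.ne]
        obtain rfl : j = j₀ := le_antisymm (h.ge_of_gt (lab_false.1 i.2)) h'.2
        exact ⟨h.unique_left h₀, rfl⟩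
      · rfl
    rw [sum_eq_single ⟨i₀, lab_false.2 h₀.lt⟩, sum_eq_single j₀, if_pos h₀]
    · exact fun j _ hj => key _ _ fun h => hj h.2
    · simp
    · exact fun i _ hi => sum_eq_zero fun j _ => key _ _ fun h => hi (Subtype.ext h.1)
    · simp

variable (ψ) in
/-- The normalised multiplicities in the mirabolic chain. -/
noncomputable def dd (φ : GL (Fin n) F → ℂ) (m : ℕ) : ℂ :=
  (Nat.card (NN F n m) : ℂ)⁻¹ * ∑ v : NN F n m, φ v * conj (ψ (sup v.1.1))

variable (ψ) in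
/-- The degenerate terms in the mirabolic chain. -/
noncomputable def ee (φ : GL (Fin n) F → ℂ) (j₀ : Fin n) : ℂ :=
  (Nat.card (NN F n j₀) : ℂ)⁻¹ * ∑ v : NN F n j₀, φ v * conj (ψ (supF j₀ v))

theorem dd_one (φ : GL (Fin n) F → ℂ) : dd ψ φ 1 = del ψ φ := by
  rw [dd, del_eq_sum, NN_one]

theorem dd_self (φ : GL (Fin n) F → ℂ) : dd ψ φ n = φ 1 := by
  have h := sum_Rad2_true (F := F) (ι := Fin n) (p := fun _ => True) (fun _ => trivial)
  have h1 := h fun _ => 1
  rw [dd, NN_self, h fun v => φ v * conj (ψ (sup v.1))]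
  simp only [sum_const, card_univ, nsmul_eq_mul, mul_one, ← Nat.card_eq_fintype_card] at h1
  rw [h1]
  simp [sup_one]

theorem dd_succ (hψ : ψ ≠ 1) {φ : GL (Fin n) F → ℂ} (hφ : IsClassFunction _ φ) {j₀ : Fin n}
    (hj : 0 < j₀.val) :
    dd ψ φ (j₀ + 1) = ee ψ φ j₀ + ((Fintype.card F : ℂ) ^ j₀.val - 1) * dd ψ φ j₀ := by
  have h₀ : (⟨j₀.val - 1, by omega⟩ : Fin n) ⋖ j₀ := by
    rw [Fin.covBy_iff, Nat.covBy_iff_add_one_eq]; simp; omega
  have := recursion hψ h₀.lt (fun v => φ v * conj (ψ (supF j₀ v))) fun z v hv => by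
    simp only [hφ _ _, supF_congr fun i hi j => conj_emb_ge j₀ z hv hi j]
  have e1 : ∀ v : NN F n (j₀ + 1), supF j₀ v.1 = sup v.1.1 := fun v => by
    rw [sup_NN h₀ (NN_succ_le _ v.2), mem_NN.1 v.2 _ _ (by omega), Matrix.one_apply_ne h₀.ne, add_zero]
  simp only [e1, mul_assoc, ← map_mul, ← AddChar.map_add_eq_mul, ← sup_NN h₀ (Subtype.prop _)] at this
  have hq : (Fintype.card F : ℂ) ≠ 0 := by exact_mod_cast Fintype.card_ne_zero
  have h2 : (Nat.card (NN F n (j₀ + 1)) : ℂ) ≠ 0 := card_ne_zero'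
  rw [dd, dd, ee, card_NN hψ h₀]
  field_simp
  linear_combination this

theorem ee_cusp {φ : GL (Fin n) F → ℂ} (hφ : IsCharacter _ φ) (hc : IsCusp φ) {j₀ : Fin n}
    (hj : 0 < j₀.val) : ee ψ φ j₀ = 0 := by
  have hle : Rad2 F (fun i => i < j₀) ≤ NN F n j₀ := fun g hg i j hij =>
    hg i j fun h => hij ⟨h.1.trans_le (not_lt.1 h.2), not_lt.1 h.2⟩
  rw [ee, sum_eq_zero_of_avg (Subgroup.inclusion hle) _ fun v => ?_, mul_zero]
  have : ∀ u : Rad2 F (fun i => i < j₀), supF j₀ (v * Subgroup.inclusion hle u).1 = supF j₀ v.1 := by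
    refine fun u => supF_congr fun i hi j => ?_
    conv_rhs => rw [← Matrix.mul_one v.1.1]
    simp only [Subgroup.coe_mul, Units.val_mul, Matrix.mul_apply, Subgroup.coe_inclusion]
    refine sum_congr rfl fun k _ => ?_
    by_cases hk : k < j₀
    · rw [mem_NN.1 v.2 i k (fun h => absurd hk (not_lt.2 h.2)),
        Matrix.one_apply_ne (hk.trans_le hi).ne', zero_mul, zero_mul]
    · rw [mem_Rad2.1 u.2 k j fun h => hk h.1]
  simp only [this, ← sum_mul]
  have h1 := char_sum_mul_eq_zero hφ (Rad2 F (fun i => i < j₀)).subtype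
    (hc _ ⟨⟨0, by omega⟩, hj⟩ ⟨j₀, lt_irrefl _⟩) v.1
  exact mul_eq_zero_of_left h1 _

theorem degree_cusp (hψ : ψ ≠ 1) {φ : GL (Fin n) F → ℂ} (hφ : IsCharacter _ φ) (hc : IsCusp φ)
    (hn : 0 < n) : φ 1 = (∏ i ∈ Ico 1 n, ((Fintype.card F : ℂ) ^ i - 1)) * del ψ φ := by
  have : ∀ m, 1 ≤ m → m ≤ n → dd ψ φ m = (∏ i ∈ Ico 1 m, ((Fintype.card F : ℂ) ^ i - 1)) * del ψ φ := by
    intro m hm
    induction m, hm using Nat.le_induction with
    | base => simp [dd_one]
    | succ m hm ih =>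
      intro h
      rw [dd_succ hψ (IsCharacter.isClassFunction hφ) (j₀ := ⟨m, h⟩) hm, ee_cusp hφ hc (j₀ := ⟨m, h⟩) hm,
        ih (by omega),
        prod_Ico_succ_top hm]
      ring
  rw [← dd_self (ψ := ψ) φ, this n hn le_rfl]

end Cfsg.Agent.H6.HC
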