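import Cfsg.Agent.H6.YoungCount

/-! The order and index of the standard parabolic subgroups of `GL n`. -/

set_option autoImplicit false
open scoped MatrixGroups Matrix
open Finset

namespace Cfsg.Agent.H6

/-- The `q`-factorial. -/
def qfact (q m : ℕ) : ℕ := ∏ j ∈ range m, ∑ l ∈ range (j + 1), q ^ l

theorem card_GL_eq_qfact {F : Type*} [Field F] [Fintype F] {ι : Type*} [Fintype ι] [DecidableEq ι] :
    Nat.card (GL ι F) = Fintype.card F ^ (∑ i ∈ range (Fintype.card ι), i) *
      (Fintype.card F - 1) ^ Fintype.card ι * qfact (Fintype.card F) (Fintype.card ι) := by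
  set m := Fintype.card ι with hm
  set q := Fintype.card F with hq
  have hq1 : 1 < q := Fintype.one_lt_card
  have e : GL ι F ≃* GL (Fin m) F :=
    Units.mapEquiv (Matrix.reindexAlgEquiv F F (Fintype.equivFin ι)).toMulEquiv
  rw [Nat.card_congr e.toEquiv, Matrix.card_GL_field, ← hq,
    Fin.prod_univ_eq_prod_range (fun i => q ^ m - q ^ i)]
  have h1 : ∀ i ∈ range m, q ^ m - q ^ i = q ^ i * ((q - 1) * ∑ l ∈ range (m - 1 - i + 1), q ^ l) := by
    intro i hi
    have hi' : i < m := mem_range.1 hi
    have h3 : (q - 1) * ∑ l ∈ range (m - 1 - i + 1), q ^ l = q ^ (m - 1 - i + 1) - 1 := by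
      have := geom_sum_mul_add (q - 1) (m - 1 - i + 1)
      rw [Nat.sub_add_cancel hq1.le, mul_comm] at this
      omega
    rw [h3, Nat.mul_sub, mul_one, ← pow_add]
    congr 2
    omega
  rw [prod_congr rfl h1, prod_mul_distrib, prod_mul_distrib, prod_pow_eq_pow_sum, prod_const, card_range,
    qfact, mul_assoc, prod_range_reflect (fun j => ∑ l ∈ range (j + 1), q ^ l) m]

/-- Block triangular invertible matrices, by diagonal blocks and the remaining entries. -/
noncomputable def blockTriEquiv {F : Type*} [Field F] {n : ℕ} (a : Fin n → Fin n) :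
    {g : GL (Fin n) F // (g : Matrix (Fin n) (Fin n) F).BlockTriangular a} ≃
      (∀ k, GL {i // a i = k} F) × ({p : Fin n × Fin n // a p.1 < a p.2} → F) where
  toFun g := (fun k => Matrix.GeneralLinearGroup.mkOfDetNeZero
    ((g.1 : Matrix (Fin n) (Fin n) F).toSquareBlock a k) (by
      have h := g.1.det_ne_zero
      rw [g.2.det_fintype] at h
      exact prod_ne_zero_iff.1 h k (mem_univ _)),
    fun p => (g.1 : Matrix (Fin n) (Fin n) F) p.1.1 p.1.2)
  invFun x :=
    let M : Matrix (Fin n) (Fin n) F := Matrix.of fun i j =>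
      if h : a j = a i then (x.1 (a i)).val ⟨i, rfl⟩ ⟨j, h⟩
      else if h : a i < a j then x.2 ⟨(i, j), h⟩ else 0
    have hM : M.BlockTriangular a := by
      intro i j hij
      simp only [M, Matrix.of_apply]
      rw [dif_neg hij.ne, dif_neg (not_lt.2 hij.le)]
    ⟨Matrix.GeneralLinearGroup.mkOfDetNeZero M (by
      rw [hM.det_fintype]
      refine prod_ne_zero_iff.2 fun k _ => ?_
      have : M.toSquareBlock a k = x.1 k := by
        ext ⟨i, hi⟩ ⟨j, hj⟩
        subst hi
        simp only [M, Matrix.toSquareBlock_def, Matrix.of_apply]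
        rw [dif_pos hj]
      rw [this]
      exact (x.1 k).det_ne_zero), hM⟩
  left_inv g := by
    apply Subtype.ext
    apply Units.ext
    ext i j
    simp only [Matrix.GeneralLinearGroup.val_mkOfDetNeZero, Matrix.of_apply,
      Matrix.toSquareBlock_def]
    split_ifs with h1 h2
    · rfl
    · rfl
    · symm
      apply g.2
      exact lt_of_le_of_ne (not_lt.1 h2) h1
  right_inv x := by
    refine Prod.ext ?_ ?_
    · funext k
      apply Units.ext
      ext ⟨i, hi⟩ ⟨j, hj⟩
      subst hi
      simp only [Matrix.GeneralLinearGroup.val_mkOfDetNeZero, Matrix.toSquareBlock_def,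
        Matrix.of_apply]
      rw [dif_pos hj]
    · funext ⟨⟨i, j⟩, h⟩
      simp only [Matrix.GeneralLinearGroup.val_mkOfDetNeZero, Matrix.of_apply]
      rw [dif_neg h.ne', dif_pos h]

theorem two_mul_sum_range (m : ℕ) : 2 * ∑ i ∈ range m, i + m = m * m := by
  induction m with
  | zero => simp
  | succ m ih => rw [sum_range_succ]; nlinarith

theorem card_parabolicGL {F : Type*} [Field F] [Fintype F] {n : ℕ} (μ : Fin n → ℕ)
    (hμ : ∑ i, μ i = n) :
    Nat.card (parabolicGL n F μ) = Fintype.card F ^ (∑ i ∈ range n, i) *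
      (Fintype.card F - 1) ^ n * ∏ k, qfact (Fintype.card F) (μ k) := by
  classical
  let a : Fin n → Fin n := fun i => ⟨compLabel μ i, compLabel_lt μ hμ i⟩
  have ha : ∀ k, Fintype.card {i // a i = k} = μ k := by
    intro k
    rw [Fintype.card_subtype, ← card_compLabel_eq μ hμ k]
    simp only [a, Fin.ext_iff]
  have e : parabolicGL n F μ ≃ _ := blockTriEquiv (F := F) a
  rw [Nat.card_congr e, Nat.card_prod, Nat.card_pi, Nat.card_fun, Nat.card_eq_fintype_card (α := F)]
  simp only [card_GL_eq_qfact, ha]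
  rw [prod_mul_distrib, prod_mul_distrib, prod_pow_eq_pow_sum, prod_pow_eq_pow_sum, hμ]
  set E := Nat.card {p : Fin n × Fin n // a p.1 < a p.2} with hE
  have hE1 : E = (univ.filter fun p : Fin n × Fin n => a p.1 < a p.2).card := by
    rw [hE, Nat.card_eq_fintype_card, Fintype.card_subtype]
  have hE2 : E = (univ.filter fun p : Fin n × Fin n => a p.2 < a p.1).card := by
    rw [hE1]
    refine card_bij (fun p _ => p.swap) ?_ (fun _ _ _ _ h => Prod.swap_injective h) ?_
    · intro p hp
      simpa using hp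
    · intro p hp
      exact ⟨p.swap, by simpa using hp, rfl⟩
  have hE3 : (univ.filter fun p : Fin n × Fin n => a p.1 = a p.2).card = ∑ k, μ k * μ k := by
    rw [card_eq_sum_card_fiberwise (f := fun p => a p.1) (t := univ) (fun _ _ => mem_univ _)]
    refine sum_congr rfl fun k _ => ?_
    rw [← ha k, Fintype.card_subtype, ← card_product]
    congr 1
    ext p
    simp only [mem_filter, mem_univ, true_and, mem_product]
    constructor
    · rintro ⟨h1, h2⟩
      exact ⟨h2, h1 ▸ h2⟩
    · rintro ⟨h1, h2⟩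
      exact ⟨h1.trans h2.symm, h1⟩
  have hE4 : (univ.filter fun p : Fin n × Fin n => a p.1 < a p.2).card +
      (univ.filter fun p : Fin n × Fin n => a p.2 < a p.1).card +
      (univ.filter fun p : Fin n × Fin n => a p.1 = a p.2).card = n * n := by
    have : n * n = ∑ _p : Fin n × Fin n, 1 := by simp
    rw [this]
    simp only [card_filter, ← sum_add_distrib]
    refine sum_congr rfl fun p _ => ?_
    split_ifs <;> omega
  have h5 : ∑ k, (2 * ∑ i ∈ range (μ k), i + μ k) = ∑ k, μ k * μ k :=
    sum_congr rfl fun k _ => two_mul_sum_range (μ k)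
  rw [sum_add_distrib, ← mul_sum, hμ] at h5
  have h6 := two_mul_sum_range n
  have h7 : ∑ i ∈ range n, i = ∑ k, ∑ i ∈ range (μ k), i + E := by omega
  rw [h7, pow_add]
  ring

theorem index_parabolicGL {F : Type*} [Field F] [Fintype F] {n : ℕ} (μ : Fin n → ℕ)
    (hμ : ∑ i, μ i = n) :
    Nat.card (GL (Fin n) F ⧸ parabolicGL n F μ) * ∏ k, qfact (Fintype.card F) (μ k) =
      qfact (Fintype.card F) n := by
  have h := Subgroup.card_eq_card_quotient_mul_card_subgroup (parabolicGL n F μ)
  rw [card_parabolicGL μ hμ, card_GL_eq_qfact, Fintype.card_fin] at h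
  have hq1 : 1 < Fintype.card F := Fintype.one_lt_card
  have hpos : 0 < Fintype.card F ^ (∑ i ∈ range n, i) * (Fintype.card F - 1) ^ n :=
    Nat.mul_pos (Nat.pow_pos (by omega)) (Nat.pow_pos (by omega))
  apply Nat.eq_of_mul_eq_mul_left hpos
  rw [h]
  ring

end Cfsg.Agent.H6
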