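import Cfsg.Agent.H6.HC6
import Cfsg.Agent.H6.ParabolicCard

/-! The norm of the Gelfand-Graev character. -/

set_option autoImplicit false
set_option linter.unusedSectionVars false
open Finset
open scoped ComplexConjugate MatrixGroups Matrix

namespace Cfsg.Agent.H6.HC

open Cfsg Cfsg.Agent.H1

variable {F : Type*} [Field F] [Fintype F] [DecidableEq F] {ψ : AddChar F ℂ} {n : ℕ}

theorem mem_NN_iff {j₀ : Fin n} {g : GL (Fin n) F} : g ∈ NN F n j₀ ↔ ∃ h : g ∈ Par F (lab j₀),
    proj F _ ⟨g, h⟩ false = 1 ∧ proj F _ ⟨g, h⟩ true ∈ UU F (Blk (lab j₀) true) := by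
  have hl : ∀ i j : Fin n, lab j₀ j < lab j₀ i ↔ j < j₀ ∧ j₀ ≤ i := fun i j => by
    rw [Bool.lt_iff, lab_false, lab_true]
  constructor
  · intro hg
    refine ⟨fun i j hij => ?_, Units.ext (Matrix.ext fun i j => ?_), mem_UU.2 fun i j hij => ?_⟩
    · rw [hl] at hij
      rw [hg i j fun h => absurd hij.1 (not_lt.2 h.2), Matrix.one_apply_ne (hij.1.trans_le hij.2).ne']
    · rw [proj_apply, mem_NN.1 hg _ _ fun h => absurd (lab_false.1 j.2) (not_lt.2 h.2)]
      simp [Matrix.one_apply, Subtype.ext_iff]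
    · rw [proj_apply, mem_NN.1 hg _ _ fun h => hij h.1]
      simp [Matrix.one_apply, Subtype.ext_iff]
  · rintro ⟨h, h1, h2⟩
    refine mem_NN.2 fun i j hij => ?_
    by_cases hi : i < j₀ <;> by_cases hj : j < j₀
    · have := congrArg (fun g => g.1 ⟨i, lab_false.2 hi⟩ ⟨j, lab_false.2 hj⟩) h1
      simpa [proj_apply, Matrix.one_apply] using this
    · exact absurd ⟨hi.trans_le (not_lt.1 hj), not_lt.1 hj⟩ hij
    · rw [h ((hl _ _).2 ⟨hj, not_lt.1 hi⟩), Matrix.one_apply_ne (hj.trans_le (not_lt.1 hi)).ne']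
    · have := mem_UU.1 h2 ⟨i, lab_true.2 (not_lt.1 hi)⟩ ⟨j, lab_true.2 (not_lt.1 hj)⟩
        fun h => hij ⟨h, not_lt.1 hj⟩
      simpa [proj_apply, Matrix.one_apply] using this

theorem sum_Th_Ps (ψ : AddChar F ℂ) (j₀ : Fin n) (φ : GL (Fin n) F → ℂ) :
    ∑ g, φ g * conj (Th (lab j₀) (fun k => if k then Ps ψ else regChar _) g) =
      Nat.card (GL (Blk (lab j₀) false) F) * ∑ v : NN F n j₀, φ v * conj (ψ (supF j₀ v)) := by
  rw [sum_subgroup (NN F n j₀), mul_sum]
  · refine sum_congr rfl fun v _ => ?_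
    obtain ⟨h, h1, h2⟩ := mem_NN_iff.1 v.2
    rw [Th_of_mem _ h, Fintype.prod_bool, if_pos rfl, if_neg (by simp), Ps_of_mem ψ h2, h1]
    simp only [regChar, if_true, map_mul, map_natCast]
    rw [mul_comm (conj _), mul_left_comm]
    rfl
  · intro g hg
    by_cases h : g ∈ Par F (lab j₀)
    · rw [Th_of_mem _ h, Fintype.prod_bool, if_pos rfl, if_neg (by simp)]
      by_cases h1 : proj F _ ⟨g, h⟩ false = 1
      · rw [Ps_of_not_mem ψ _ fun h2 => hg (mem_NN_iff.2 ⟨h, h1, h2⟩)]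
        simp
      · simp [regChar, h1]
    · rw [Th_of_not_mem _ _ h, map_zero, mul_zero]

theorem ee_eq {φ : GL (Fin n) F → ℂ} (hφ : IsClassFunction _ φ) (j₀ : Fin n) :
    ee ψ φ j₀ = classInner φ (hc (lab j₀) fun k => if k then Gam ψ _ else regChar _) := by
  have h1 : ∀ g, Th (lab j₀) (fun k => if k then Gam ψ _ else regChar _) g =
      (Nat.card (UU F (Blk (lab j₀) true)) : ℂ)⁻¹ * ∑ z : GL (Blk (lab j₀) true) F, Th (lab j₀)
        (fun k => if k then Ps ψ else regChar _) ((emb F (lab j₀) true z)⁻¹ * g * emb F _ true z) := by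
    intro g
    by_cases h : g ∈ Par F (lab j₀)
    · rw [Th_of_mem _ h, Fintype.prod_bool, if_pos rfl, if_neg (by simp), Gam, ind, mul_assoc, sum_mul]
      congr 1
      refine sum_congr rfl fun z _ => ?_
      have hz := emb_mem (F := F) (lab j₀) true z
      have : (⟨_, mul_mem (mul_mem (inv_mem hz) h) hz⟩ : Par F (lab j₀)) =
        (⟨_, hz⟩ : Par F (lab j₀))⁻¹ * ⟨g, h⟩ * ⟨_, hz⟩ := rfl
      rw [Th_of_mem _ (mul_mem (mul_mem (inv_mem hz) h) hz), this, map_mul, map_mul, map_inv, proj_emb,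
        Fintype.prod_bool]
      simp
    · rw [Th_of_not_mem _ _ h, sum_eq_zero, mul_zero]
      intro z _
      apply Th_of_not_mem
      rwa [Subgroup.mul_mem_cancel_right _ (emb_mem _ _ _),
        Subgroup.mul_mem_cancel_left _ (inv_mem (emb_mem _ _ _))]
  have h2 : ∀ z : GL (Blk (lab j₀) true) F, ∑ g, φ g * conj (Th (lab j₀) (fun k => if k then Ps ψ else regChar _)
      ((emb F _ true z)⁻¹ * g * emb F _ true z)) = Nat.card (GL (Blk (lab j₀) false) F) *
        ∑ v : NN F n j₀, φ v * conj (ψ (supF j₀ v)) := fun z => by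
    rw [← sum_Th_Ps ψ j₀ φ, ← sum_conj (fun g => φ g * conj (Th (lab j₀) _ g)) (emb F _ true z)]
    simp only [class_conj hφ]
  have h3 := avg_Th (F := F) (a := lab j₀) (fun k => if k then Ps 1 else regChar _)
  have h4 := sum_Th_Ps (1 : AddChar F ℂ) j₀ (fun _ => 1)
  simp only [one_mul, ← map_sum, AddChar.one_apply, map_one, sum_const, card_univ, nsmul_eq_mul,
    mul_one, ← Nat.card_eq_fintype_card] at h4
  have h5 : ∑ x, Ps (1 : AddChar F ℂ) (x : GL (Blk (lab j₀) true) F) =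
      Nat.card (UU F (Blk (lab j₀) true)) := by
    rw [sum_subgroup _ (Ps_of_not_mem 1)]
    simp [Ps_of_mem]
  have h6 : ∑ x, regChar (GL (Blk (lab j₀) false) F) x = Nat.card (GL (Blk (lab j₀) false) F) := by
    classical simp [regChar]
  rw [← Complex.conj_conj (∑ g, _), h4, Fintype.prod_bool, if_pos rfl, if_neg (by simp), h5, h6] at h3
  rw [hc, inner_ind_right _ _ hφ, ee]
  simp only [h1, map_mul, map_sum, mul_left_comm (φ _), ← mul_sum]
  simp only [mul_sum _ _ (φ _)]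
  rw [sum_comm]
  simp only [h2, sum_const, card_univ, nsmul_eq_mul, ← Nat.card_eq_fintype_card, map_inv₀,
    map_natCast, map_mul] at h3 ⊢
  have c1 : (Nat.card (NN F n j₀) : ℂ) ≠ 0 := card_ne_zero'
  have c2 : (Nat.card (Par F (lab j₀)) : ℂ) ≠ 0 := card_ne_zero'
  have c3 : (Nat.card (UU F (Blk (lab j₀) true)) : ℂ) ≠ 0 := card_ne_zero'
  have c4 : (Nat.card (GL (Blk (lab j₀) true) F) : ℂ) ≠ 0 := card_ne_zero'
  have c5 : (Nat.card (GL (Blk (lab j₀) false) F) : ℂ) ≠ 0 := card_ne_zero'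
  field_simp at h3 ⊢
  rw [← h3]

theorem card_UU (hψ : ψ ≠ 1) :
    (Nat.card (UU F (Fin n)) : ℂ) = (Fintype.card F : ℂ) ^ (∑ i ∈ range n, i) := by
  have h0 : (Nat.card (NN F n n) : ℂ) = 1 := by
    have h1 := sum_Rad2_true (F := F) (ι := Fin n) (p := fun _ => True) (fun _ => trivial) fun _ => 1
    simpa only [sum_const, card_univ, nsmul_eq_mul, mul_one, ← Nat.card_eq_fintype_card, NN_self] using h1
  rcases Nat.eq_zero_or_pos n with rfl | hn
  · have : Subsingleton (GL (Fin 0) F) := ⟨fun _ _ => Units.ext (Subsingleton.elim _ _)⟩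
    rw [Nat.card_unique]
    simp
  have : ∀ m, 1 ≤ m → m ≤ n → (Nat.card (UU F (Fin n)) : ℂ) =
      (Fintype.card F : ℂ) ^ (∑ i ∈ range m, i) * Nat.card (NN F n m) := by
    intro m hm
    induction m, hm using Nat.le_induction with
    | base => simp [NN_one]
    | succ m hm ih =>
      intro h
      have h₀ : (⟨m - 1, by omega⟩ : Fin n) ⋖ ⟨m, h⟩ := by
        rw [Fin.covBy_iff, Nat.covBy_iff_add_one_eq]; simp; omega
      rw [ih (by omega), card_NN hψ h₀, sum_range_succ, pow_add, mul_assoc]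
  rw [this n hn le_rfl, h0, mul_one]

theorem del_regChar (hψ : ψ ≠ 1) {ι : Type} [Fintype ι] [DecidableEq ι] [LinearOrder ι] :
    del ψ (regChar (GL ι F)) = ∏ i ∈ Ico 1 (Fintype.card ι + 1), ((Fintype.card F : ℂ) ^ i - 1) := by
  classical
  have hq : (Fintype.card F : ℂ) ≠ 0 := by exact_mod_cast Fintype.card_ne_zero
  have : ∑ g, regChar (GL ι F) g * conj (Ps ψ g) = Nat.card (GL ι F) := by
    simp [regChar, Ps_of_mem ψ (one_mem _), sup_one]
  rw [del, this, card_UU_congr (ordIso (Fintype.equivFin ι)), card_UU hψ, card_GL_eq_qfact]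
  push_cast
  rw [mul_assoc, inv_mul_cancel_left₀ (pow_ne_zero _ hq), Nat.cast_sub Fintype.card_pos]
  generalize Fintype.card ι = m
  induction m with
  | zero => simp [qfact]
  | succ m ih =>
    rw [prod_Ico_succ_top (by omega), ← ih, qfact, prod_range_succ, ← qfact, ← mul_geom_sum]
    push_cast
    ring

theorem Gam_one {ι : Type} [Fintype ι] [DecidableEq ι] [LinearOrder ι] :
    Gam ψ ι 1 = del ψ (regChar (GL ι F)) := by
  rw [del_eq ψ (IsCharacter.isClassFunction isCharacter_regChar),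
    IsCharacter.classInner_comm isCharacter_regChar (isCharacter_Gam ψ), classInner_regChar]

theorem del_Gam_congr {ι : Type} [Fintype ι] [DecidableEq ι] [LinearOrder ι] {m : ℕ}
    (h : Fintype.card ι = m) : del ψ (Gam ψ ι) = del ψ (Gam ψ (Fin m)) := by
  rw [← del_reGL ψ (IsCharacter.isClassFunction (isCharacter_Gam ψ)) (Fintype.equivFinOfCardEq h)]
  simp only [Gam_reGL]

theorem ee_Gam (hψ : ψ ≠ 1) (j₀ : Fin n) : ee ψ (Gam ψ (Fin n)) j₀ =
    (∏ i ∈ Ico 1 (j₀.val + 1), ((Fintype.card F : ℂ) ^ i - 1)) * del ψ (Gam ψ (Fin (n - j₀))) := by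
  have hf : ∀ k, IsCharacter (GL (Blk (lab j₀) k) F) (if k then Gam ψ _ else regChar _) := by
    intro k
    split_ifs
    exacts [isCharacter_Gam ψ, isCharacter_regChar]
  rw [ee_eq (IsCharacter.isClassFunction (isCharacter_Gam ψ)),
    IsCharacter.classInner_comm (isCharacter_Gam ψ) (isCharacter_hc hf),
    ← del_eq ψ (IsCharacter.isClassFunction (isCharacter_hc hf)),
    del_hc hψ _ fun k => IsCharacter.isClassFunction (hf k), Fintype.prod_bool, if_pos rfl,
    if_neg (by simp), del_regChar hψ, del_Gam_congr (card_blk_true j₀), card_blk_false, mul_comm]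

theorem sum_del_Gam (hψ : ψ ≠ 1) :
    ∑ j ∈ range n, del ψ (Gam ψ (Fin (n - j))) = (Fintype.card F : ℂ) ^ n - 1 := by
  rcases Nat.eq_zero_or_pos n with rfl | hn
  · simp
  have : ∀ m, 1 ≤ m → m ≤ n → dd ψ (Gam ψ (Fin n)) m =
      (∏ i ∈ Ico 1 m, ((Fintype.card F : ℂ) ^ i - 1)) * ∑ j ∈ range m, del ψ (Gam ψ (Fin (n - j))) := by
    intro m hm
    induction m, hm using Nat.le_induction with
    | base => simp [dd_one]
    | succ m hm ih =>
      intro h
      rw [dd_succ hψ (IsCharacter.isClassFunction (isCharacter_Gam ψ)) (j₀ := ⟨m, h⟩) hm, ee_Gam hψ,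
        ih (by omega), prod_Ico_succ_top hm, sum_range_succ]
      ring
  have h := this n hn le_rfl
  rw [dd_self, Gam_one, del_regChar hψ, Fintype.card_fin, prod_Ico_succ_top hn] at h
  refine (mul_left_cancel₀ (prod_ne_zero_iff.2 fun i hi => sub_ne_zero.2 ?_) h).symm
  have := (mem_Ico.1 hi).1
  exact_mod_cast (Nat.one_lt_pow (by omega) Fintype.one_lt_card).ne'

theorem del_Gam (hψ : ψ ≠ 1) : del ψ (Gam ψ (Fin (n + 1))) =
    (Fintype.card F : ℂ) ^ (n + 1) - (Fintype.card F : ℂ) ^ n := by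
  have h1 := sum_del_Gam (n := n + 1) hψ
  have h2 := sum_del_Gam (n := n) hψ
  rw [sum_range_succ', sum_congr rfl (g := fun j => del ψ (Gam ψ (Fin (n - j)))) fun j _ =>
    del_Gam_congr (by simp), h2, del_Gam_congr (m := n + 1) (by simp)] at h1
  linear_combination h1

end Cfsg.Agent.H6.HC
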