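import Cfsg.Agent.H6.HC7

/-! The Gelfand-Graev character is multiplicity free. -/

set_option autoImplicit false
set_option linter.unusedSectionVars false
open Finset
open scoped ComplexConjugate MatrixGroups Matrix

namespace Cfsg.Agent.H6.HC

open Cfsg Cfsg.Agent.H1

theorem layered {n : ℕ} {α : Type*} (π : Equiv.Perm (Fin n)) (t : Fin n → α)
    (H : ∀ i j, i ⋖ j → π i < π j → π i ⋖ π j ∧ t i = t j) (i : Fin n) :
    π (π i).rev = i.rev ∧ t (π i).rev = t i := by
  have H' : ∀ i j : Fin n, i.val + 1 = j.val → (π i).val < (π j).val →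
      (π i).val + 1 = (π j).val ∧ t i = t j := fun i j h h' => by
    have := H i j (by rwa [Fin.covBy_iff, Nat.covBy_iff_add_one_eq]) h'
    rwa [Fin.covBy_iff, Nat.covBy_iff_add_one_eq] at this
  have inj : ∀ i j : Fin n, (π i).val = (π j).val → i.val = j.val := fun i j h =>
    congrArg Fin.val (π.injective (Fin.ext h))
  have A : ∀ (d : ℕ) (i j : Fin n) (v : ℕ), i.val + d = j.val → (π i).val ≤ v → v ≤ (π j).val →
      ∃ k : Fin n, i.val ≤ k.val ∧ k.val ≤ j.val ∧ (π k).val = v := by
    intro d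
    induction d with
    | zero =>
      intro i j v h h1 h2
      obtain rfl : i = j := Fin.ext h
      exact ⟨i, le_rfl, le_rfl, by omega⟩
    | succ d ih =>
      intro i j v h h1 h2
      let j' : Fin n := ⟨i.val + d, by omega⟩
      by_cases h3 : v ≤ (π j').val
      · obtain ⟨k, a, b, c⟩ := ih i j' v rfl h1 h3
        exact ⟨k, a, by simp only [j'] at b; omega, c⟩
      · have := (H' j' j (by simp only [j']; omega) (by omega)).1
        exact ⟨j, by omega, le_rfl, by omega⟩
  have B : ∀ (d : ℕ) (i j : Fin n), i.val + d = j.val → (π i).val ≤ (π j).val →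
      (π i).val + d = (π j).val ∧ t i = t j := by
    intro d
    induction d with
    | zero =>
      intro i j h _
      obtain rfl : i = j := Fin.ext h
      exact ⟨rfl, rfl⟩
    | succ d ih =>
      intro i j h h1
      let j' : Fin n := ⟨i.val + d, by omega⟩
      have hj : j'.val + 1 = j.val := by simp only [j']; omega
      by_cases h3 : (π i).val ≤ (π j').val
      · obtain ⟨a, b⟩ := ih i j' rfl h3
        have h4 : (π j').val < (π j).val := by
          by_contra h4
          obtain ⟨k, -, b, c⟩ := A d i j' _ rfl h1 (by omega)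
          have := inj _ _ c
          omega
        obtain ⟨c, e⟩ := H' j' j hj h4
        exact ⟨by omega, b.trans e⟩
      · have := (H' j' j hj (by omega)).1
        have := inj i j (by omega)
        omega
  obtain ⟨a, ⟨ha1, ha2⟩, ha⟩ := exists_minimal_of_wellFoundedLT (fun k : Fin n => k ≤ i ∧ π k ≤ π i)
    ⟨i, le_rfl, le_rfl⟩
  obtain ⟨b, ⟨hb1, hb2⟩, hb⟩ := exists_maximal_of_wellFoundedGT (fun k : Fin n => i ≤ k ∧ π i ≤ π k)
    ⟨i, le_rfl, le_rfl⟩
  rw [Fin.le_def] at ha1 ha2 hb1 hb2
  have C : ∀ k : Fin n, a.val ≤ k.val → k.val ≤ b.val → (π a).val ≤ (π k).val := by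
    intro k h1 h2
    by_contra h3
    obtain ⟨l, c, -, e⟩ := A (b.val - k.val) k b (π a).val (by omega) (by omega) (by omega)
    have := inj _ _ e
    have := congrArg (fun x => (π x).val) (Fin.ext (by omega) : k = a)
    omega
  have hai := B (i.val - a.val) a i (by omega) ha2
  have D : (univ.filter fun k => π k < π a) = Ioi b := by
    ext k
    simp only [mem_filter, mem_univ, true_and, mem_Ioi, Fin.lt_def]
    constructor
    · intro h
      by_contra h'
      by_cases h1 : a.val ≤ k.val
      · have := C k h1 (by omega)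
        omega
      · have := ha (y := k) ⟨by rw [Fin.le_def]; omega, by rw [Fin.le_def]; omega⟩
          (by rw [Fin.le_def]; omega)
        exact h1 this
    · intro h
      by_contra h'
      have h1 := (B (k.val - a.val) a k (by omega) (by omega)).1
      have := hb (y := k) ⟨by rw [Fin.le_def]; omega, by rw [Fin.le_def]; omega⟩
        (by rw [Fin.le_def]; omega)
      rw [Fin.le_def] at this
      omega
  have E : (π a).val = n - 1 - b.val := by
    rw [← Fin.card_Ioi, ← D, ← Fin.card_Iio]
    exact (card_equiv π (by simp)).symm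
  have hb3 := b.2
  have hr : (π i).rev.val = a.val + (b.val - i.val) := by rw [Fin.val_rev]; omega
  have := B (b.val - i.val) a (π i).rev hr.symm (C _ (by omega) (by omega))
  exact ⟨Fin.ext (by rw [Fin.val_rev]; omega), this.2.symm.trans hai.2⟩

variable {F : Type*} [Field F] [Fintype F] [DecidableEq F] {ψ : AddChar F ℂ} {n : ℕ}

/-- The anti-automorphism given by reflection in the antidiagonal. -/
def th (g : GL (Fin n) F) : GL (Fin n) F :=
  ⟨(g.1.submatrix Fin.revPerm Fin.revPerm)ᵀ, ((g⁻¹).1.submatrix Fin.revPerm Fin.revPerm)ᵀ,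
    by rw [← Matrix.transpose_mul, Matrix.submatrix_mul_equiv]; simp,
    by rw [← Matrix.transpose_mul, Matrix.submatrix_mul_equiv]; simp⟩

theorem th_apply (g : GL (Fin n) F) (i j : Fin n) : (th g).1 i j = g.1 j.rev i.rev := rfl

theorem th_mul (g h : GL (Fin n) F) : th (g * h) = th h * th g := Units.ext (by
  simp only [th, Units.val_mul]
  rw [← Matrix.transpose_mul, Matrix.submatrix_mul_equiv])

theorem th_th (g : GL (Fin n) F) : th (th g) = g := Units.ext (by ext i j; simp [th_apply])

theorem th_mem {u : GL (Fin n) F} (hu : u ∈ UU F (Fin n)) : th u ∈ UU F (Fin n) :=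
  mem_UU.2 fun i j h => by
    rw [th_apply, mem_UU.1 hu _ _ (by simpa using h)]
    simp [Matrix.one_apply, eq_comm]

theorem sup_th (u : GL (Fin n) F) : sup (th u).1 = sup u.1 := by
  classical
  rw [sup, sup, sum_comm, ← Equiv.sum_comp Fin.revPerm]
  refine sum_congr rfl fun i _ => ?_
  rw [← Equiv.sum_comp Fin.revPerm]
  refine sum_congr rfl fun j _ => if_congr ?_ (by simp [th_apply]) rfl
  simp only [Fin.covBy_iff, Nat.covBy_iff_add_one_eq, Fin.revPerm_apply, Fin.val_rev]
  omega

theorem th_eq_of_mono (hψ : ψ ≠ 1) {M : Type*} [AddCommGroup M] [Module ℂ M] {f : GL (Fin n) F → M}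
    (h1 : ∀ u ∈ UU F (Fin n), ∀ g, f (u * g) = ψ (sup u.1) • f g)
    (h2 : ∀ u ∈ UU F (Fin n), ∀ g, f (g * u) = ψ (sup u.1) • f g) {g : GL (Fin n) F}
    {π : Equiv.Perm (Fin n)} (hg : ∀ i j, j ≠ π i → g.1 i j = 0) (hf : f g ≠ 0) : th g = g := by
  classical
  have ht : ∀ i, g.1 i (π i) ≠ 0 := fun i h => by
    refine g.det_ne_zero (Matrix.det_eq_zero_of_row_eq_zero i fun j => ?_)
    by_cases hj : j = π i
    · rw [hj, h]
    · exact hg i j hj
  have key := layered π (fun i => g.1 i (π i)) fun i j hij hπ => by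
    have e : ∀ c : F, tv hij.ne c * g = g * tv hπ.ne (c * (g.1 j (π j) / g.1 i (π i))) := by
      intro c
      apply Units.ext
      ext k l
      simp only [tv, Units.val_mul]
      by_cases hk : k = i <;> by_cases hl : l = π j
      · subst hk hl
        rw [Matrix.transvection_mul_apply_same, Matrix.mul_transvection_apply_same]
        field_simp [ht k]
      · subst hk
        rw [Matrix.transvection_mul_apply_same, Matrix.mul_transvection_apply_of_ne _ _ _ _ hl,
          hg j l hl, mul_zero, add_zero]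
      · subst hl
        rw [Matrix.transvection_mul_apply_of_ne _ _ _ _ hk, Matrix.mul_transvection_apply_same,
          hg k (π i) (fun h => hk (π.injective h).symm), mul_zero, add_zero]
      · rw [Matrix.transvection_mul_apply_of_ne _ _ _ _ hk,
          Matrix.mul_transvection_apply_of_ne _ _ _ _ hl]
    have e2 : ∀ c : F, ψ c = ψ (if π i ⋖ π j then c * (g.1 j (π j) / g.1 i (π i)) else 0) := by
      intro c
      have := h1 _ (tv_mem hij.lt c) g
      rw [e, h2 _ (tv_mem hπ _), sup_tv, sup_tv, if_pos hij] at this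
      exact (smul_left_injective ℂ hf this).symm
    by_cases hc : π i ⋖ π j
    · refine ⟨hc, ?_⟩
      by_contra hne
      refine AddChar.IsPrimitive.of_ne_one hψ (a := 1 - g.1 j (π j) / g.1 i (π i)) ?_ ?_
      · rw [sub_ne_zero, ne_comm, Ne, div_eq_one_iff_eq (ht i)]
        exact Ne.symm hne
      · ext c
        have := e2 c
        rw [if_pos hc] at this
        rw [AddChar.mulShift_apply, sub_mul, one_mul, mul_comm, AddChar.map_sub_eq_div, ← this,
          div_self (ψ.val_isUnit c).ne_zero, AddChar.one_apply]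
    · exact absurd (AddChar.ext _ _ fun c => by simpa [hc] using e2 c) hψ
  apply Units.ext
  ext i j
  rw [th_apply]
  by_cases hj : j = π i
  · subst hj
    rw [← (key i).1]
    exact (key i).2
  · rw [hg i j hj, hg]
    intro h
    have := (key j.rev).1
    rw [← h, Fin.rev_rev, Fin.rev_rev] at this
    exact hj this.symm

theorem map_th (hψ : ψ ≠ 1) {M : Type*} [AddCommGroup M] [Module ℂ M] {f : GL (Fin n) F → M}
    (h1 : ∀ u ∈ UU F (Fin n), ∀ g, f (u * g) = ψ (sup u.1) • f g)
    (h2 : ∀ u ∈ UU F (Fin n), ∀ g, f (g * u) = ψ (sup u.1) • f g) (g : GL (Fin n) F) :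
    f (th g) = f g := by
  obtain ⟨p, hp, w, u, hu, rfl⟩ := bruhat_PU (F := F) id g
  let D : GL (Fin n) F := diagB F id (proj F id ⟨p, hp⟩)
  have hD : p * D⁻¹ ∈ UU F (Fin n) := by
    rw [UU, ← Rad_refine_true, mem_Rad_refine]
    refine ⟨mul_mem hp (inv_mem (diagB_mem _ _)), fun k => ?_⟩
    have : (⟨_, mul_mem hp (inv_mem (diagB_mem _ _))⟩ : Par F id) =
      (⟨p, hp⟩ : Par F id) * (⟨D, diagB_mem _ _⟩ : Par F id)⁻¹ := rfl
    rw [this, map_mul, map_inv, proj_diagB, mul_inv_cancel]
    exact one_mem _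
  have hm : ∀ i j, j ≠ w.symm i → (D * permGL F w).1 i j = 0 := fun i j h => by
    rw [Units.val_mul, mul_permGL_apply, diagB_apply_ne]
    rintro (rfl : i = w j)
    exact h (by simp)
  have key : f (th (D * permGL F w)) = f (D * permGL F w) := by
    by_cases h : f (D * permGL F w) = 0
    · by_contra h'
      rw [h] at h'
      have := th_eq_of_mono hψ h1 h2 (π := (Fin.revPerm.trans w).trans Fin.revPerm)
        (g := th (D * permGL F w)) (fun i j hij => hm _ _ fun e => hij (by simp [e])) h'
      rw [th_th] at this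
      exact h' (this ▸ h)
    · rw [th_eq_of_mono hψ h1 h2 hm h]
  rw [show p * permGL F w * u = p * D⁻¹ * (D * permGL F w) * u by group, th_mul, th_mul,
    h1 _ (th_mem hu), h2 _ (th_mem hD), h2 _ hu, h1 _ hD, sup_th, sup_th, key]

theorem del_le_one (hψ : ψ ≠ 1) {χ : GL (Fin n) F → ℂ} (hχ : IsIrrCharacter _ χ) :
    del ψ χ = 0 ∨ del ψ χ = 1 := by
  obtain ⟨d, ρ, hρ, rfl⟩ := hχ
  have hK : (Nat.card (UU F (Fin n)) : ℂ) ≠ 0 := card_ne_zero'
  set E : Module.End ℂ (Fin d → ℂ) := (Nat.card (UU F (Fin n)) : ℂ)⁻¹ •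
    ∑ u : UU F (Fin n), conj (psiHom ψ _ u) • ρ u with hE
  have hc : ∀ u v : UU F (Fin n), conj (psiHom ψ _ v) = psiHom ψ _ u * conj (psiHom ψ _ (u * v)) := by
    intro u v
    rw [map_mul, map_mul, ← hom_inv_eq_conj _ u, ← mul_assoc, ← map_mul, mul_inv_cancel, map_one, one_mul]
  have e1 : ∀ u : UU F (Fin n), ρ u * E = psiHom ψ _ u • E := by
    intro u
    rw [hE, mul_smul_comm, smul_comm (psiHom ψ _ u), mul_sum, smul_sum (r := psiHom ψ _ u)]
    congr 1
    refine Fintype.sum_equiv (Equiv.mulLeft u) _ _ fun v => ?_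
    rw [mul_smul_comm, ← map_mul, smul_smul, hc u v]
    rfl
  have e2 : ∀ u : UU F (Fin n), E * ρ u = psiHom ψ _ u • E := by
    intro u
    rw [hE, smul_mul_assoc, smul_comm (psiHom ψ _ u), sum_mul, smul_sum (r := psiHom ψ _ u)]
    congr 1
    refine Fintype.sum_equiv (Equiv.mulRight u) _ _ fun v => ?_
    rw [smul_mul_assoc, ← map_mul, smul_smul, hc u v, map_mul (psiHom ψ _) u v,
      mul_comm (psiHom ψ _ u) (psiHom ψ _ v), ← map_mul (psiHom ψ _) v u]
    rfl
  have e3 : IsIdempotentElem E := by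
    unfold IsIdempotentElem
    nth_rewrite 1 [hE]
    rw [smul_mul_assoc, sum_mul]
    simp only [smul_mul_assoc, e1, smul_smul, ← hom_inv_eq_conj, ← map_mul, inv_mul_cancel, map_one,
      one_smul, sum_const, card_univ, ← Nat.card_eq_fintype_card]
    rw [← Nat.cast_smul_eq_nsmul ℂ, smul_smul, inv_mul_cancel₀ hK, one_smul]
  have e4 : ∀ g, E * ρ (th g) * E = E * ρ g * E := map_th hψ (f := fun g => E * ρ g * E)
    (fun u hu g => by rw [map_mul, ← mul_assoc, e2 ⟨u, hu⟩, smul_mul_assoc, smul_mul_assoc]; rfl)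
    (fun u hu g => by
      rw [map_mul, mul_assoc, mul_assoc, e1 ⟨u, hu⟩, mul_smul_comm, mul_smul_comm, mul_assoc]; rfl)
  have e5 : ∀ g h, E * ρ g * E * ρ h * E = (Nat.card (UU F (Fin n)) : ℂ)⁻¹ •
      ∑ u : UU F (Fin n), conj (psiHom ψ _ u) • (E * ρ (g * u * h) * E) := by
    intro g h
    nth_rewrite 2 [hE]
    simp only [mul_smul_comm, smul_mul_assoc, mul_sum, sum_mul, map_mul, mul_assoc]
  have e6 : ∀ g h, E * ρ g * E * (E * ρ h * E) = E * ρ h * E * (E * ρ g * E) := by
    have : ∀ g h, E * ρ g * E * (E * ρ h * E) = E * ρ g * E * ρ h * E := fun g h => by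
      rw [← mul_assoc, ← mul_assoc, mul_assoc _ E E, e3.eq]
    intro g h
    conv_rhs => rw [← e4 h, ← e4 g]
    rw [this, this, e5, e5]
    congr 1
    let τ : UU F (Fin n) → UU F (Fin n) := fun u => ⟨th u.1, th_mem u.2⟩
    have hτ : Function.Involutive τ := fun u => Subtype.ext (th_th _)
    refine Fintype.sum_bijective τ hτ.bijective _ _ fun u => ?_
    rw [← e4, th_mul, th_mul, mul_assoc (th h)]
    congr 2
    exact congrArg ψ (sup_th _).symm
  have e7 : del ψ ρ.character = Module.finrank ℂ (LinearMap.range E) := by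
    rw [← (LinearMap.IsIdempotentElem.isProj_range E e3).trace, del_eq_sum, hE, map_smul, map_sum]
    simp only [map_smul, smul_eq_mul, mul_comm (conj _)]
    rfl
  suffices Module.finrank ℂ (LinearMap.range E) ≤ 1 by
    rw [e7]
    interval_cases Module.finrank ℂ (LinearMap.range E) <;> simp
  have hEv : ∀ v ∈ LinearMap.range E, E v = v := by
    rintro _ ⟨v, rfl⟩
    exact congrArg (· v) e3.eq
  have span : ∀ v ∈ LinearMap.range E, v ≠ 0 → ∀ S : Submodule ℂ (Fin d → ℂ),
      (∀ g, (E * ρ g * E) v ∈ S) → LinearMap.range E ≤ S := by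
    intro v hv hv0 S hS
    let T : Subrepresentation ρ := ⟨Submodule.span ℂ (Set.range fun g => ρ g v), fun g x hx => by
      refine Submodule.span_induction (p := fun x _ => ρ g x ∈ _) ?_ (by simp) ?_ ?_ hx
      · rintro _ ⟨h, rfl⟩
        exact Submodule.subset_span ⟨g * h, by simp⟩
      · intro x y _ _ hx hy
        rw [map_add]; exact add_mem hx hy
      · intro c x _ hx
        rw [map_smul]; exact Submodule.smul_mem _ _ hx⟩
    have hT : T = ⊤ := (eq_bot_or_eq_top T).resolve_left fun h => hv0 (by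
      have : v ∈ T.toSubmodule := Submodule.subset_span ⟨1, by simp⟩
      rw [h] at this
      exact this)
    rintro _ ⟨x, rfl⟩
    have hx : x ∈ T.toSubmodule := by rw [hT]; trivial
    refine (Submodule.span_le (p := S.comap E)).2 ?_ hx
    rintro _ ⟨g, rfl⟩
    have := hS g
    rwa [Module.End.mul_apply, hEv v hv] at this
  rcases eq_or_ne (LinearMap.range E) ⊥ with h | h
  · rw [h]; simp
  obtain ⟨v, hv, hv0⟩ := Submodule.exists_mem_ne_zero_of_ne_bot h
  refine (Submodule.finrank_mono (span v hv hv0 (Submodule.span ℂ {v}) fun g => ?_)).trans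
    (finrank_span_singleton hv0).le
  have hA : ∀ x ∈ LinearMap.range E, (E * ρ g * E) x ∈ LinearMap.range E := fun x _ => ⟨_, rfl⟩
  have : Nontrivial (LinearMap.range E) := Submodule.nontrivial_iff_ne_bot.2 h
  obtain ⟨μ, hμ⟩ := Module.End.exists_eigenvalue ((E * ρ g * E).restrict hA)
  obtain ⟨⟨x, hx⟩, hx1, hx2⟩ := hμ.exists_hasEigenvector
  have hx3 : (E * ρ g * E) x = μ • x := congrArg Subtype.val (Module.End.mem_eigenspace_iff.1 hx1)
  have := span x hx (fun h => hx2 (Subtype.ext h)) (Module.End.eigenspace (E * ρ g * E) μ)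
    (fun h => by
      rw [Module.End.mem_eigenspace_iff, ← Module.End.mul_apply, e6, Module.End.mul_apply, hx3,
        map_smul]) hv
  rw [Module.End.mem_eigenspace_iff.1 this]
  exact Submodule.smul_mem _ _ (Submodule.mem_span_singleton_self v)

end Cfsg.Agent.H6.HC
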