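import Cfsg.Agent.H6.HC8
import Cfsg.Agent.H4.Rcf

/-! Counting cuspidal characters of `GL`. -/

set_option autoImplicit false
set_option linter.unusedSectionVars false
open Finset Polynomial
open scoped ComplexConjugate MatrixGroups Matrix

namespace Cfsg.Agent.H6.HC

open Cfsg Cfsg.Agent.H1

/-- Multisets of given total degree. -/
def MS {A : Type*} (d : A → ℕ) (n : ℕ) : Type _ := {S : Multiset A // (S.map d).sum = n}

theorem card_MS_split {A : Type*} (d : A → ℕ) (hd : ∀ a, 0 < d a) (n : ℕ) [Finite (MS d n)] :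
    Nat.card (MS d n) = Nat.card {a // d a = n} +
      Nat.card (MS (fun a : {a // d a < n} => d a.1) n) := by
  let f : {a // d a = n} ⊕ MS (fun a : {a // d a < n} => d a.1) n → MS d n :=
    Sum.elim (fun a => ⟨{a.1}, by simpa using a.2⟩)
      (fun S => ⟨S.1.map Subtype.val, by simpa using S.2⟩)
  have key : ∀ (a : {a // d a = n}) (S : Multiset {a // d a < n}), {a.1} ≠ S.map Subtype.val := by
    intro a S h
    obtain ⟨b, -, hb⟩ := Multiset.mem_map.1 (h ▸ Multiset.mem_singleton_self a.1)
    have := b.2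
    rw [hb, a.2] at this
    exact lt_irrefl _ this
  have hf : Function.Bijective f := by
    constructor
    · rintro (a | S) (b | T) h <;> replace h := congrArg Subtype.val h
      · exact congrArg _ (Subtype.ext (Multiset.singleton_inj.1 h))
      · exact absurd h (key _ _)
      · exact absurd h.symm (key _ _)
      · exact congrArg _ (Subtype.ext (Multiset.map_injective Subtype.val_injective h))
    · rintro ⟨S, hS⟩
      by_cases h : ∀ a ∈ S, d a < n
      · lift S to Multiset {a // d a < n} using h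
        exact ⟨Sum.inr ⟨S, by simpa using hS⟩, rfl⟩
      · push Not at h
        obtain ⟨a, ha, h⟩ := h
        obtain ⟨T, rfl⟩ := Multiset.exists_cons_of_mem ha
        have h1 := hS
        rw [Multiset.map_cons, Multiset.sum_cons] at h1
        obtain rfl : T = 0 := Multiset.eq_zero_of_forall_notMem fun b hb => by
          have := Multiset.le_sum_of_mem (Multiset.mem_map_of_mem d hb)
          have := hd b
          omega
        exact ⟨Sum.inl ⟨a, by simpa using h1⟩, rfl⟩
  have := Finite.of_injective f hf.1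
  have := Finite.sum_left (α := {a // d a = n}) (MS (fun a : {a // d a < n} => d a.1) n)
  have := Finite.sum_right (β := MS (fun a : {a // d a < n} => d a.1) n) {a // d a = n}
  rw [← Nat.card_sum, Nat.card_congr (Equiv.ofBijective f hf)]

theorem card_fiber_eq {A B : Type*} (d : A → ℕ) (e : B → ℕ) (hd : ∀ a, 0 < d a) (he : ∀ b, 0 < e b)
    (fA : ∀ n, Finite {a // d a = n}) (fB : ∀ n, Finite {b // e b = n})
    (h : ∀ n, Nat.card (MS d (n + 1)) = Nat.card (MS e (n + 1)))
    (h0 : ∀ n, Nat.card (MS d (n + 1)) ≠ 0) (n : ℕ) :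
    Nat.card {a // d a = n} = Nat.card {b // e b = n} := by
  induction n using Nat.strong_induction_on with
  | _ n ih =>
  rcases n with _ | n
  · have : IsEmpty {a // d a = 0} := ⟨fun a => (hd a.1).ne' a.2⟩
    have : IsEmpty {a // e a = 0} := ⟨fun a => (he a.1).ne' a.2⟩
    simp
  have := Nat.finite_of_card_ne_zero (h0 n)
  have := Nat.finite_of_card_ne_zero (h n ▸ h0 n)
  have h1 := h n
  rw [card_MS_split d hd, card_MS_split e he] at h1
  have hq : ∀ k : ℕ, Nonempty ({a : {a // d a < n + 1} // d a.1 = k} ≃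
      {b : {b // e b < n + 1} // e b.1 = k}) := by
    intro k
    by_cases hk : k < n + 1
    · exact ⟨(Equiv.subtypeSubtypeEquivSubtype (q := fun a => d a = k) fun h => h ▸ hk).trans
        ((Finite.card_eq.1 (ih k hk)).some.trans
        (Equiv.subtypeSubtypeEquivSubtype (q := fun a => e a = k) fun h => h ▸ hk).symm)⟩
    · have : IsEmpty {a : {a // d a < n + 1} // d a.1 = k} := ⟨fun a => hk (a.2 ▸ a.1.2)⟩
      have : IsEmpty {a : {a // e a < n + 1} // e a.1 = k} := ⟨fun a => hk (a.2 ▸ a.1.2)⟩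
      exact ⟨Equiv.equivOfIsEmpty _ _⟩
  let φ := Equiv.ofFiberEquiv fun k => (hq k).some
  have hφ : ∀ a, e (φ a).1 = d a.1 := fun a => Equiv.ofFiberEquiv_map (fun k => (hq k).some) a
  have : Nat.card (MS (fun a : {a // d a < n + 1} => d a.1) (n + 1)) =
      Nat.card (MS (fun a : {a // e a < n + 1} => e a.1) (n + 1)) :=
    Nat.card_congr (Equiv.subtypeEquiv ⟨Multiset.map φ, Multiset.map φ.symm, fun S => by simp,
      fun S => by simp⟩ fun S => by simp [hφ])
  omega

variable {F : Type*} [Field F] [Fintype F] [DecidableEq F] {ψ : AddChar F ℂ} {n : ℕ}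

/-- The monic irreducible polynomials other than `X`. -/
abbrev IrrP (F : Type*) [Field F] : Type _ := {f : F[X] // f.Monic ∧ Irreducible f ∧ f ≠ X}

theorem card_monic (n : ℕ) : Nat.card {p : F[X] // p.Monic ∧ p.natDegree = n} = Fintype.card F ^ n := by
  rw [Nat.card_congr ((monicEquivDegreeLT n).trans (degreeLTEquiv F n).toEquiv)]
  simp

theorem card_MS_poly (n : ℕ) : Nat.card (MS (fun f : IrrP F => f.1.natDegree) (n + 1)) =
    (Fintype.card F - 1) * Fintype.card F ^ n := by
  have hdeg : ∀ S : Multiset (IrrP F), (S.map Subtype.val).prod.Monic ∧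
      (S.map Subtype.val).prod.natDegree = (S.map fun f => f.1.natDegree).sum ∧
      (S.map Subtype.val).prod.coeff 0 ≠ 0 := by
    intro S
    induction S using Multiset.induction_on with
    | empty => simp
    | cons a S ih =>
      simp only [Multiset.map_cons, Multiset.prod_cons, Multiset.sum_cons, mul_coeff_zero]
      refine ⟨a.2.1.mul ih.1, by rw [a.2.1.natDegree_mul ih.1, ih.2.1], mul_ne_zero (fun h => ?_) ih.2.2⟩
      exact a.2.2.2 (eq_of_monic_of_associated monic_X a.2.1
        (irreducible_X.associated_of_dvd a.2.2.1 (X_dvd_iff.2 h))).symm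
  let f : MS (fun f : IrrP F => f.1.natDegree) (n + 1) →
      {p : F[X] // p.Monic ∧ p.natDegree = n + 1 ∧ p.coeff 0 ≠ 0} :=
    fun S => ⟨_, (hdeg S.1).1, (hdeg S.1).2.1.trans S.2, (hdeg S.1).2.2⟩
  have hf : Function.Bijective f := by
    constructor
    · intro S T h
      have key : ∀ S : Multiset (IrrP F), UniqueFactorizationMonoid.normalizedFactors
          (S.map Subtype.val).prod = S.map Subtype.val := fun S => by
        rw [UniqueFactorizationMonoid.normalizedFactors_prod_eq _ (by
          simp only [Multiset.forall_mem_map_iff]; exact fun a _ => a.2.2.1), Multiset.map_map]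
        exact Multiset.map_congr rfl fun a _ => a.2.1.normalize_eq_self
      refine Subtype.ext (Multiset.map_injective Subtype.val_injective ?_)
      rw [← key, ← key T.1]
      exact congrArg _ (congrArg Subtype.val h)
    · rintro ⟨p, h1, h2, h3⟩
      have h4 : (UniqueFactorizationMonoid.normalizedFactors p).prod = p := by
        rw [UniqueFactorizationMonoid.prod_normalizedFactors_eq h1.ne_zero, h1.normalize_eq_self]
      obtain ⟨S, hS⟩ : ∃ S : Multiset (IrrP F), S.map Subtype.val =
          UniqueFactorizationMonoid.normalizedFactors p := CanLift.prf _ fun a ha => by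
        obtain ⟨a1, a2, a3⟩ := (Polynomial.mem_normalizedFactors_iff h1.ne_zero).1 ha
        exact ⟨a2, a1, by rintro rfl; exact h3 (X_dvd_iff.1 a3)⟩
      exact ⟨⟨S, by rw [← (hdeg S).2.1, hS, h4, h2]⟩, Subtype.ext (by simp only [f, hS, h4])⟩
  let g : {c : F // c ≠ 0} × {p : F[X] // p.Monic ∧ p.natDegree = n} →
      {p : F[X] // p.Monic ∧ p.natDegree = n + 1 ∧ p.coeff 0 ≠ 0} := fun x =>
    have h : (C x.1.1).degree < (X * x.2.1).degree := degree_C_le.trans_lt (by
      rw [degree_mul, degree_X, degree_eq_natDegree x.2.2.1.ne_zero]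
      exact_mod_cast (by omega : 0 < 1 + x.2.1.natDegree))
    ⟨X * x.2.1 + C x.1.1, (monic_X.mul x.2.2.1).add_of_left h, by
      rw [natDegree_add_C, natDegree_X_mul x.2.2.1.ne_zero, x.2.2.2], by simpa using x.1.2⟩
  have hg : Function.Bijective g := by
    constructor
    · rintro ⟨⟨c, _⟩, ⟨p, _⟩⟩ ⟨⟨c', _⟩, ⟨p', _⟩⟩ h
      replace h : X * p + C c = X * p' + C c' := congrArg Subtype.val h
      obtain rfl : c = c' := by simpa using congrArg (coeff · 0) h
      obtain rfl : p = p' := mul_left_cancel₀ X_ne_zero (add_right_cancel h)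
      rfl
    · rintro ⟨p, h1, h2, h3⟩
      have h4 : p.divX.natDegree = n := by rw [natDegree_divX_eq_natDegree_tsub_one, h2]; rfl
      refine ⟨(⟨_, h3⟩, ⟨p.divX, ?_, h4⟩), Subtype.ext (X_mul_divX_add p)⟩
      rw [Monic, leadingCoeff, h4, coeff_divX, ← h2]
      exact h1
  rw [Nat.card_congr (Equiv.ofBijective f hf), ← Nat.card_congr (Equiv.ofBijective g hg),
    Nat.card_prod, card_monic]
  simp

theorem finite_IrrP (n : ℕ) : Finite {f : IrrP F // f.1.natDegree = n} := by
  have : Finite {p : F[X] // p.Monic ∧ p.natDegree = n} := Nat.finite_of_card_ne_zero (by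
    rw [card_monic]; exact pow_ne_zero _ Fintype.card_ne_zero)
  exact Finite.of_injective
    (fun f => (⟨f.1.1, f.1.2.1, f.2⟩ : {p : F[X] // p.Monic ∧ p.natDegree = n}))
    fun f g h => Subtype.ext (Subtype.ext (congrArg (·.1) h))

theorem totient_le (hn : 0 < n) :
    Nat.totient (Fintype.card F ^ n - 1) ≤ n * Nat.card {f : IrrP F // f.1.natDegree = n} := by
  classical
  obtain ⟨p, _⟩ := CharP.exists F
  have : Fact p.Prime := ⟨CharP.char_is_prime F p⟩
  have : NeZero n := ⟨hn.ne'⟩
  let K := FiniteField.Extension F p n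
  have := Fintype.ofFinite K
  have := finite_IrrP (F := F) n
  have := Fintype.ofFinite {f : IrrP F // f.1.natDegree = n}
  have hK : Fintype.card Kˣ = Fintype.card F ^ n - 1 := by
    rw [Fintype.card_units, ← Nat.card_eq_fintype_card, FiniteField.natCard_extension,
      Nat.card_eq_fintype_card]
  have hi : ∀ x : K, IsIntegral F x := fun x => IsIntegral.of_finite F x
  let f : {x : Kˣ // orderOf x = Fintype.card Kˣ} → {f : IrrP F // f.1.natDegree = n} := fun x =>
    ⟨⟨minpoly F x.1.1, minpoly.monic (hi _), minpoly.irreducible (hi _), fun h => by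
      have := minpoly.aeval F x.1.1
      rw [h, aeval_X] at this
      exact x.1.ne_zero this⟩, by
      refine ((Field.primitive_element_iff_minpoly_natDegree_eq F x.1.1).1
        (eq_top_iff.2 fun y _ => ?_)).trans (FiniteField.finrank_extension F p n)
      rcases eq_or_ne y 0 with rfl | hy
      · exact zero_mem _
      have h1 : Subgroup.zpowers x.1 = ⊤ := Subgroup.eq_top_of_card_eq _ (by
        rw [Nat.card_zpowers, x.2, Nat.card_eq_fintype_card])
      obtain ⟨k, hk⟩ : Units.mk0 y hy ∈ Submonoid.powers x.1 :=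
        mem_powers_iff_mem_zpowers.2 (h1 ▸ Subgroup.mem_top _)
      have : y = x.1.1 ^ k := by simpa using (congrArg Units.val hk).symm
      rw [this]
      exact pow_mem (IntermediateField.mem_adjoin_simple_self F _) k⟩
  rw [← hK, ← IsCyclic.card_orderOf_eq_totient dvd_rfl, ← Fintype.card_subtype, ← card_univ,
    Nat.card_eq_fintype_card, ← card_univ]
  refine card_le_mul_card_image_of_maps_to (f := f) (fun _ _ => mem_univ _) n fun b _ => ?_
  refine le_trans (card_le_card_of_injOn (fun x => x.1.1) (t := (b.1.1.aroots K).toFinset) ?_ ?_) ?_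
  · intro x hx
    obtain rfl : f x = b := (mem_filter.1 hx).2
    simp [f, minpoly.ne_zero (hi _)]
  · exact fun x _ y _ h => Subtype.ext (Units.ext h)
  · exact (Multiset.toFinset_card_le _).trans ((card_roots' _).trans (by rw [natDegree_map, b.2]))

/-- The cuspidal irreducible characters. -/
abbrev Cusp (F : Type*) [Field F] [Fintype F] [DecidableEq F] : Type _ :=
  {c : Irr F // 0 < c.1 ∧ IsCusp c.2.1}

theorem del_cusp (hψ : ψ ≠ 1) {χ : GL (Fin n) F → ℂ} (hχ : IsIrrCharacter _ χ) (hc : IsCusp χ)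
    (hn : 0 < n) : del ψ χ = 1 := (del_le_one hψ hχ).resolve_left fun h =>
  IsIrrCharacter.one_ne_zero hχ (by
    rw [degree_cusp hψ (IsIrrCharacter.isCharacter hχ) hc hn, h, mul_zero])

theorem del_hcD (hψ : ψ ≠ 1) {κ : Type} [Fintype κ] [LinearOrder κ] {a : Fin n → κ} {c : κ → Cusp F}
    (h : Datum a fun k => (c k).1) : del ψ (hcD a fun k => (c k).1) = 1 := by
  rw [hcD, del_hc hψ _ fun k => IsCharacter.isClassFunction (h.isChar k)]
  refine prod_eq_one fun k _ => ?_
  rw [show ev (c k).1 (Blk a k) = _ from funext (ev_eq _ (Fintype.equivFinOfCardEq (h.card k))),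
    del_reGL ψ (c k).1.isClass, del_cusp hψ (c k).1.2.2 (c k).2.2 (c k).2.1]

theorem exists_datum_of (S : MS (fun c : Cusp F => c.1.1) n) : ∃ (N : ℕ) (a : Fin n → Fin N)
    (c : Fin N → Cusp F), Datum a (fun k => (c k).1) ∧ univ.val.map c = S.1 := by
  obtain ⟨S, hS⟩ := S
  induction S using Quotient.inductionOn with
  | _ l =>
  have h1 : univ.val.map l.get = (l : Multiset _) := by rw [Fin.univ_val_map, List.ofFn_get]
  let e : Fin n ≃ Σ k, Fin (l.get k).1.1 := Fintype.equivOfCardEq (by
    rw [Fintype.card_fin, ← hS, Multiset.quot_mk_to_coe, ← h1, Multiset.map_map]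
    simp [List.sum_ofFn])
  refine ⟨_, fun i => (e i).1, l.get, ⟨fun k => ⟨e.symm ⟨k, ⟨0, (l.get k).2.1⟩⟩, by simp⟩, fun k => ?_,
    fun k => (l.get k).2.2⟩, h1⟩
  rw [Fintype.card_congr ((e.subtypeEquiv (q := fun x => x.1 = k) fun _ => Iff.rfl).trans
    (Equiv.sigmaSubtype k)), Fintype.card_fin]

theorem existsUnique_generic (hψ : ψ ≠ 1) {φ : GL (Fin n) F → ℂ} (hφ : IsCharacter _ φ)
    (h : del ψ φ = 1) : ∃! χ : IrrCharacter (GL (Fin n) F), del ψ χ.1 ≠ 0 ∧ classInner χ.1 φ ≠ 0 := by
  classical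
  obtain ⟨m, hm, -⟩ := IsCharacter.exists_coords hφ
  have hc := fun χ : IrrCharacter (GL (Fin n) F) => IsIrrCharacter.isCharacter χ.2
  rw [del_eq ψ (IsCharacter.isClassFunction hφ),
    IsClassFunction.classInner_eq_sum (IsCharacter.isClassFunction hφ)] at h
  simp only [hm, ← del_eq ψ (IsCharacter.isClassFunction (hc _))] at h
  have h1 : ∑ χ : IrrCharacter (GL (Fin n) F), (if del ψ χ.1 ≠ 0 then m χ else 0) = 1 := by
    rw [← Nat.cast_eq_one (R := ℂ), ← h, Nat.cast_sum]
    refine sum_congr rfl fun χ _ => ?_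
    rcases del_le_one hψ χ.2 with h | h <;> simp [h]
  have h2 : ∀ χ : IrrCharacter (GL (Fin n) F), (del ψ χ.1 ≠ 0 ∧ classInner χ.1 φ ≠ 0) ↔
      (if del ψ χ.1 ≠ 0 then m χ else 0) ≠ 0 := fun χ => by
    rw [IsCharacter.classInner_comm (hc χ) hφ, hm]
    simp
  simp only [h2]
  obtain ⟨χ, -, h3⟩ := exists_ne_zero_of_sum_ne_zero (h1.trans_ne one_ne_zero)
  refine ⟨χ, h3, fun χ' h => ?_⟩
  by_contra hne
  have := sum_le_sum_of_subset (f := fun χ : IrrCharacter (GL (Fin n) F) =>
    if del ψ χ.1 ≠ 0 then m χ else 0) (subset_univ {χ', χ})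
  rw [sum_pair hne, h1] at this
  omega

theorem card_MS_cusp (hψ : ψ ≠ 1) : Nat.card (MS (fun c : Cusp F => c.1.1) n) =
    Nat.card {χ : IrrCharacter (GL (Fin n) F) // del ψ χ.1 ≠ 0} := by
  choose N a c hD hS using exists_datum_of (F := F) (n := n)
  choose χ hχ hu using fun S => existsUnique_generic hψ (hD S).isCharacter (del_hcD hψ (hD S))
  refine Nat.card_congr (Equiv.ofBijective (fun S => ⟨χ S, (hχ S).1⟩) ⟨fun S T h => ?_, fun ξ => ?_⟩)
  · replace h : χ S = χ T := congrArg Subtype.val h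
    obtain ⟨β, hβ⟩ := exists_equiv_of_inner (hD S) (hD T) (inner_ne_zero_of_common
      (hD S).isCharacter (hD T).isCharacter (χ S).2 (hχ S).2 (h ▸ (hχ T).2))
    refine Subtype.ext ?_
    rw [← hS, ← hS, ← Multiset.map_univ_val_equiv β, Multiset.map_map]
    exact Multiset.map_congr rfl fun k _ => Subtype.ext (hβ k).symm
  · obtain ⟨κ, _, _, b, d, h1, h2⟩ := exists_datum ξ.1.2
    let d' : κ → Cusp F := fun k => ⟨d k, by
      obtain ⟨i, hi⟩ := h1.surj k
      rw [← h1.card]
      exact Fintype.card_pos_iff.2 ⟨⟨i, hi⟩⟩, h1.cusp k⟩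
    let S : MS (fun c : Cusp F => c.1.1) n := ⟨univ.val.map d', by
      rw [Multiset.map_map]
      change ∑ k, (d k).1 = n
      simp only [← h1.card]
      rw [← Fintype.card_sigma, Fintype.card_congr (Equiv.sigmaFiberEquiv b), Fintype.card_fin]⟩
    obtain ⟨β, hβ⟩ := H4.exists_equiv_of_map_eq _ _ (hS S)
    refine ⟨S, Subtype.ext (hu S _ ⟨ξ.2, ?_⟩).symm⟩
    rwa [hcD_eq (hD S) h1 β fun k => congrArg Subtype.val (hβ k)]

theorem card_generic (hψ : ψ ≠ 1) :
    Nat.card {χ : IrrCharacter (GL (Fin (n + 1)) F) // del ψ χ.1 ≠ 0} =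
      (Fintype.card F - 1) * Fintype.card F ^ n := by
  classical
  have h := del_Gam (n := n) hψ
  have hG := IsCharacter.isClassFunction (isCharacter_Gam (ι := Fin (n + 1)) ψ)
  have hc := fun χ : IrrCharacter (GL (Fin (n + 1)) F) => IsIrrCharacter.isCharacter χ.2
  rw [del_eq ψ hG, IsClassFunction.classInner_eq_sum hG] at h
  simp only [IsCharacter.classInner_comm (isCharacter_Gam ψ) (hc _),
    ← del_eq ψ (IsCharacter.isClassFunction (hc _))] at h
  rw [← Nat.cast_inj (R := ℂ), Nat.card_eq_fintype_card, Fintype.card_subtype, card_filter]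
  push_cast [Nat.cast_sub Fintype.card_pos]
  rw [sub_mul, ← pow_succ', one_mul, ← h]
  refine sum_congr rfl fun χ _ => ?_
  rcases del_le_one hψ χ.2 with h | h <;> simp [h]

theorem ev_cusp_inj : Function.Injective fun c : {c : Cusp F // c.1.1 = n} =>
    (⟨ev c.1.1 (Fin n), isIrr_ev (by simpa using c.2.symm)⟩ : IrrCharacter (GL (Fin n) F)) :=
  fun c d h => Subtype.ext (Subtype.ext (ev_inj (by simpa using c.2.symm) (by simpa using d.2.symm)
    (congrArg Subtype.val h)))

theorem exists_psi : ∃ ψ : AddChar F ℂ, ψ ≠ 1 := ⟨AddChar.FiniteField.primitiveChar_to_Complex F, by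
  simpa using AddChar.FiniteField.primitiveChar_to_Complex_isPrimitive F (a := 1) one_ne_zero⟩

theorem card_cusp (n : ℕ) :
    Nat.card {c : Cusp F // c.1.1 = n} = Nat.card {f : IrrP F // f.1.natDegree = n} := by
  obtain ⟨ψ, hψ⟩ := exists_psi (F := F)
  refine card_fiber_eq (fun c : Cusp F => c.1.1) (fun f : IrrP F => f.1.natDegree) (fun c => c.2.1)
    (fun f => f.2.2.1.natDegree_pos) (fun m => Finite.of_injective _ ev_cusp_inj) finite_IrrP
    (fun m => ?_) (fun m => ?_) n <;> rw [card_MS_cusp hψ, card_generic hψ]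
  · rw [card_MS_poly]
  · have := Fintype.one_lt_card (α := F)
    exact mul_ne_zero (by omega) (pow_ne_zero _ (by omega))

end Cfsg.Agent.H6.HC
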