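import Cfsg.Agent.H4.Fitting
import Cfsg.Agent.H5.Semi

/-! Fitting decomposition counts on symplectic spaces. -/

set_option autoImplicit false

namespace Cfsg.Agent.H6

open Module H5

theorem card_induced {G X : Type*} [Group G] [MulAction G X] (K : Subgroup G) (A S : Set X)
    (h1 : ∀ k ∈ K, ∀ a ∈ A, k • a ∈ A) (h2 : ∀ g : G, ∀ a ∈ A, g • a ∈ A → g ∈ K)
    (h3 : ∀ x, x ∈ S ↔ ∃ g : G, ∃ a ∈ A, g • a = x) :
    Nat.card S * Nat.card K = Nat.card G * Nat.card A := by
  choose γ α hα hx using fun x : S => (h3 x).1 x.2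
  rw [← Nat.card_prod, ← Nat.card_prod]
  refine Nat.card_eq_of_bijective (fun y => (γ y.1 * y.2, ⟨(y.2⁻¹ : K).1 • α y.1, h1 _ y.2⁻¹.2 _ (hα _)⟩))
    ⟨fun ⟨x, k⟩ ⟨x', k'⟩ e => ?_, fun ⟨g, a, ha⟩ => ?_⟩
  · simp only [Prod.mk.injEq, Subtype.mk.injEq] at e
    obtain rfl : x = x' := Subtype.ext (by
      have := congrArg₂ (· • ·) e.1 e.2
      simpa [mul_smul, hx] using this)
    rw [Subtype.ext (mul_left_cancel e.1)]
  · let x : S := ⟨g • a, (h3 _).2 ⟨g, a, ha, rfl⟩⟩
    have e : ((γ x)⁻¹ * g) • a = α x := by rw [mul_smul, inv_smul_eq_iff, hx]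
    refine ⟨(x, ⟨(γ x)⁻¹ * g, h2 _ a ha (e ▸ hα x)⟩), Prod.ext (by simp) (Subtype.ext ?_)⟩
    exact inv_smul_eq_iff.2 e.symm

universe u

variable {F : Type*} [Field F] {V V' : Type u} [AddCommGroup V] [Module F V] [AddCommGroup V']
  [Module F V']

/-- The generalized kernel. -/
def gk (T : End F V) : Submodule F V where
  carrier := {v | ∃ n, (T ^ n) v = 0}
  add_mem' := fun {a b} ⟨m, h⟩ ⟨n, h'⟩ => ⟨m + n, by
    rw [map_add]
    nth_rw 1 [add_comm m n]
    simp [pow_add, h, h']⟩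
  zero_mem' := ⟨0, rfl⟩
  smul_mem' := fun c v ⟨n, h⟩ => ⟨n, by simp [h]⟩

theorem gk_eq [FiniteDimensional F V] (T : End F V) : gk T = LinearMap.ker (T ^ finrank F V) :=
  le_antisymm (fun _ ⟨n, h⟩ => End.ker_pow_le_ker_pow_finrank T n h) fun _ h => ⟨_, h⟩

theorem finrank_gk_top [FiniteDimensional F V] {T : End F V} :
    finrank F (gk T) = finrank F V ↔ IsNilpotent T := by
  refine ⟨fun h => ⟨_, LinearMap.ker_eq_top.1 (gk_eq T ▸ Submodule.eq_top_of_finrank_eq h)⟩,
    fun ⟨n, h⟩ => ?_⟩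
  rw [show gk T = ⊤ from eq_top_iff.2 fun v _ => ⟨n, by simp [h]⟩, finrank_top]

theorem finrank_gk_bot [FiniteDimensional F V] {T : End F V} :
    finrank F (gk T) = 0 ↔ Function.Injective T := by
  rw [Submodule.finrank_eq_zero, injective_iff_map_eq_zero, Submodule.eq_bot_iff]
  refine ⟨fun h v e => h v ⟨1, by simpa⟩, fun h v ⟨n, e⟩ => ?_⟩
  exact (injective_iff_map_eq_zero _).1
    (End.iterate_injective ((injective_iff_map_eq_zero _).2 h) n) v e

theorem pow_intertw {T : End F V} {T' : End F V'} {e : V →ₗ[F] V'} (h : ∀ v, e (T v) = T' (e v))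
    (n : ℕ) (v : V) : e ((T ^ n) v) = (T' ^ n) (e v) := by
  induction n with
  | zero => rfl
  | succ n ih => rw [pow_succ', pow_succ', End.mul_apply, End.mul_apply, h, ih]

theorem finrank_gk_congr {T : End F V} {T' : End F V'} (e : V ≃ₗ[F] V')
    (h : ∀ v, e (T v) = T' (e v)) : finrank F (gk T') = finrank F (gk T) := by
  rw [← e.finrank_map_eq]
  refine congrArg (fun W : Submodule F V' => finrank F W) (Submodule.ext fun v => ?_)
  obtain ⟨v, rfl⟩ := e.surjective v
  rw [Submodule.mem_map_equiv, e.symm_apply_apply]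
  exact exists_congr fun n => by
    rw [← e.coe_coe, ← pow_intertw (e := e.toLinearMap) h]; simp

theorem finrank_gk_prod [FiniteDimensional F V] {T : End F V} {T' : End F V'} (h : IsNilpotent T)
    (h' : Function.Injective T') : finrank F (gk (T.prodMap T' : End F (V × V'))) = finrank F V := by
  obtain ⟨n, h⟩ := h
  have key : ∀ (n : ℕ) (v : V × V'), ((T.prodMap T' : End F (V × V')) ^ n) v =
      ((T ^ n) v.1, (T' ^ n) v.2) := fun n v => Prod.ext
    (pow_intertw (e := LinearMap.fst F V V') (fun _ => rfl) n v)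
    (pow_intertw (e := LinearMap.snd F V V') (fun _ => rfl) n v)
  rw [← LinearMap.finrank_range_of_inj (LinearMap.inl_injective (R := F) (M := V) (M₂ := V'))]
  refine congrArg (fun W : Submodule F _ => finrank F W)
    (le_antisymm ?_ ?_)
  · rintro v ⟨m, e⟩
    exact ⟨v.1, Prod.ext rfl
      (End.iterate_injective h' m (by simpa [key] using (congrArg Prod.snd e).symm))⟩
  · rintro _ ⟨v, rfl⟩
    exact ⟨n, by simp [key, h]⟩

/-- Isometries (`t = true`), or the affine space `X + X* = 1` (`t = false`). -/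
def Rl (t : Bool) (B : Bil F V) (f : End F V) : Prop :=
  ∀ u v, (if t then B (f u) (f v) else B (f u) v + B u (f v)) = B u v

/-- The polynomial in `f` whose Fitting decomposition is orthogonal. -/
def ap (t : Bool) (f : End F V) : End F V := if t then 1 - f else f * (1 - f)

/-- The number of solutions with a generalized kernel of dimension `n`. -/
noncomputable def cn (t : Bool) (B : Bil F V) (n : ℕ) : ℕ :=
  Nat.card {f | Rl t B f ∧ finrank F (gk (ap t f)) = n}

variable {t : Bool} {B : Bil F V} {B' : Bil F V'}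

theorem ap_intertw {f : End F V} {f' : End F V'} {e : V →ₗ[F] V'} (h : ∀ v, e (f v) = f' (e v))
    (v : V) : e (ap t f v) = ap t f' (e v) := by
  cases t <;> simp [ap, h]

theorem Rl.of_intertw {f : End F V} {f' : End F V'} {e : V →ₗ[F] V'} (h : ∀ v, e (f v) = f' (e v))
    (he : ∀ u v, B' (e u) (e v) = B u v) (r : Rl t B' f') : Rl t B f := fun u v => by
  simpa only [← he, h] using r (e u) (e v)

theorem mem_conj (e : V ≃ₗ[F] V') (he : ∀ u v, B' (e u) (e v) = B u v) {n : ℕ} (f : End F V) :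
    (Rl t B' (e.conj f) ∧ finrank F (gk (ap t (e.conj f))) = n) ↔
      Rl t B f ∧ finrank F (gk (ap t f)) = n := by
  have h : ∀ v, e (f v) = e.conj f (e v) := fun v => by simp [LinearEquiv.conj_apply]
  rw [finrank_gk_congr e (ap_intertw (e := e.toLinearMap) h)]
  refine and_congr_left' ⟨Rl.of_intertw (e := e.toLinearMap) h he,
    Rl.of_intertw (e := e.symm.toLinearMap) (fun v => by simp [LinearEquiv.conj_apply])
      fun u v => by rw [← he]; simp⟩

theorem cn_congr [FiniteDimensional F V] [FiniteDimensional F V'] (hB : IsSp B) (hB' : IsSp B')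
    (h : finrank F V = finrank F V') (n : ℕ) : cn t B n = cn t B' n := by
  obtain ⟨e, he⟩ := exists_isometry hB.good hB'.good h
  exact Nat.card_congr (e.conj.toEquiv.subtypeEquiv fun f => (mem_conj e he f).symm)

theorem card_conj (B : Bil F V) (K : Subgroup (Isom B)) (A S : Set (End F V))
    (h1 : ∀ k ∈ K, ∀ a ∈ A, k.1.conj a ∈ A) (h2 : ∀ g : Isom B, ∀ a ∈ A, g.1.conj a ∈ A → g ∈ K)
    (h3 : ∀ x, x ∈ S ↔ ∃ g : Isom B, ∃ a ∈ A, g.1.conj a = x) :
    Nat.card S * Nat.card K = Nat.card (Isom B) * Nat.card A :=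
  @card_induced _ _ _ { smul g f := g.1.conj f, one_smul _ := rfl, mul_smul _ _ _ := rfl }
    K A S h1 h2 h3

variable [FiniteDimensional F V] [FiniteDimensional F V']

theorem Rl.perp (hB : IsSp B) {f : End F V} (r : Rl t B f) (n : ℕ) (u v : V)
    (hv : (ap t f ^ n) v = 0) : B ((ap t f ^ n) u) v = 0 := by
  obtain ⟨c, c₁, c₂⟩ : ∃ c : End F V, Commute c (ap t f) ∧ ∀ u v, B (ap t f u) v = B u (c (ap t f v)) := by
    cases t
    · refine ⟨1, Commute.one_left _, fun u v => ?_⟩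
      have a := r (f u) v
      have b := r u (f v)
      simp only [ap, Bool.false_eq_true, if_false, End.mul_apply, LinearMap.sub_apply,
        End.one_apply, map_sub] at a b ⊢
      linear_combination b - a
    · let g := hB.isEps.toIsom f r
      have e : ∀ v, g.1.symm (f v) = v := g.1.symm_apply_apply
      have e' : ∀ v, f (g.1.symm v) = v := g.1.apply_symm_apply
      refine ⟨-g.1.symm, LinearMap.ext fun v => by simp [ap, e, e'], fun u v => ?_⟩
      have : B (f u) v = _ := Isom.apply_left g u v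
      simp only [ap, if_true, LinearMap.sub_apply, End.one_apply, map_sub, LinearMap.neg_apply,
        LinearEquiv.coe_coe, map_neg, e]
      linear_combination -this
  have key : ∀ n v, B ((ap t f ^ n) u) v = B u (((c * ap t f) ^ n) v) := fun n => by
    induction n with
    | zero => simp
    | succ n ih => intro v; rw [pow_succ', End.mul_apply, c₂, ih, pow_succ]; rfl
  rw [key, c₁.mul_pow, End.mul_apply, hv, map_zero, map_zero]

theorem Rl.isCompl (f : End F V) :
    IsCompl (gk (ap t f)) (LinearMap.range (ap t f ^ finrank F V)) := by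
  simpa [gk_eq, kerP, ranP] using isCompl_kerP (ap t f) 0 le_rfl

theorem Rl.range_eq (hB : IsSp B) {f : End F V} (r : Rl t B f) :
    LinearMap.range (ap t f ^ finrank F V) ≤ H5.perp B (gk (ap t f)) := by
  rintro _ ⟨u, rfl⟩
  exact mem_perp.2 fun v hv => r.perp hB _ u v (by rwa [gk_eq] at hv)

theorem Rl.even (hB : IsSp B) {f : End F V} (r : Rl t B f) : Even (finrank F (gk (ap t f))) :=
  (hB.restrict (hB.isEps.disjoint_of_isCompl (Rl.isCompl f) (r.range_eq hB))).even_finrank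

omit [FiniteDimensional F V] [FiniteDimensional F V'] in
theorem eq_prodMap {A C : Type*} [AddCommGroup A] [Module F A] [AddCommGroup C] [Module F C]
    (h : (A × C) →ₗ[F] (A × C)) (h1 : ∀ x, (h (x, 0)).2 = 0) (h2 : ∀ y, (h (0, y)).1 = 0) :
    ∃ (a : A →ₗ[F] A) (d : C →ₗ[F] C), ∀ x y, h (x, y) = (a x, d y) :=
  ⟨LinearMap.fst F _ _ ∘ₗ h ∘ₗ LinearMap.inl F _ _, LinearMap.snd F _ _ ∘ₗ h ∘ₗ LinearMap.inr F _ _,
    fun x y => by
      rw [show (x, y) = (x, 0) + (0, y) by simp, map_add]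
      ext1 <;> simp [h1, h2]⟩

theorem exists_split (hB : IsSp B) (hB' : IsSp B') {f : End F (V × V')}
    (r : Rl t (prodForm B B') f) (h : finrank F (gk (ap t f)) = finrank F V) :
    ∃ (g : Isom (prodForm B B')) (a : End F V) (b : End F V'),
      (Rl t B a ∧ finrank F (gk (ap t a)) = finrank F V) ∧
      (Rl t B' b ∧ finrank F (gk (ap t b)) = 0) ∧ g.1.conj (a.prodMap b) = f := by
  have hP := hB.prod hB'
  have c := Rl.isCompl (t := t) f
  have d := r.range_eq hP
  have n₁ := hP.isEps.disjoint_of_isCompl c d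
  have n₂ := hP.isEps.disjoint_of_isCompl c.symm (hP.isEps.le_perp_comm d)
  have h' := Submodule.finrank_add_eq_of_isCompl c
  replace h' := add_left_cancel (h ▸ h'.trans finrank_prod)
  obtain ⟨e₁, a₁⟩ := exists_isometry hB.good (hP.restrict n₁).good h.symm
  obtain ⟨e₂, a₂⟩ := exists_isometry hB'.good (hP.restrict n₂).good h'.symm
  have cm : ∀ n v, f ((ap t f ^ n) v) = (ap t f ^ n) (f v) :=
    pow_intertw (ap_intertw (e := f) fun _ => rfl)
  have i₁ : ∀ v ∈ gk (ap t f), f v ∈ gk (ap t f) := fun v ⟨n, e⟩ => ⟨n, by rw [← cm, e, map_zero]⟩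
  have i₂ : ∀ v ∈ LinearMap.range (ap t f ^ finrank F (V × V')),
      f v ∈ LinearMap.range (ap t f ^ finrank F (V × V')) := by
    rintro _ ⟨v, rfl⟩
    exact ⟨_, (cm _ v).symm⟩
  let j₁ := (gk (ap t f)).subtype ∘ₗ e₁.toLinearMap
  let j₂ := (LinearMap.range (ap t f ^ finrank F (V × V'))).subtype ∘ₗ e₂.toLinearMap
  have b₁ : ∀ v, j₁ (e₁.symm.conj (f.restrict i₁) v) = f (j₁ v) := fun v => by
    simp [j₁, LinearEquiv.conj_apply]
  have b₂ : ∀ v, j₂ (e₂.symm.conj (f.restrict i₂) v) = f (j₂ v) := fun v => by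
    simp [j₂, LinearEquiv.conj_apply]
  have inj₁ : Function.Injective j₁ := Subtype.val_injective.comp e₁.injective
  have inj₂ : Function.Injective j₂ := Subtype.val_injective.comp e₂.injective
  let g := hP.isEps.toIsom (j₁.coprod j₂) fun u v => by
    have z₁ := mem_perp.1 (d (e₂ u.2).2) _ (e₁ v.1).2
    have z₂ := hP.isEps.refl (mem_perp.1 (d (e₂ v.2).2) _ (e₁ u.1).2)
    simp only [LinearMap.coprod_apply, map_add, LinearMap.add_apply]
    rw [prodForm_apply B B' u v, ← a₁, ← a₂]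
    exact (congrArg₂ (· + ·) (add_eq_left.2 z₁) (add_eq_right.2 z₂))
  refine ⟨g, e₁.symm.conj (f.restrict i₁), e₂.symm.conj (f.restrict i₂), ⟨r.of_intertw b₁ a₁, ?_⟩,
    ⟨r.of_intertw b₂ a₂, ?_⟩, ?_⟩
  · rw [← finrank_top F V]
    refine congrArg (fun W : Submodule F V => finrank F W) (Submodule.eq_top_iff'.2 fun v => ?_)
    obtain ⟨n, hn⟩ := (e₁ v).2
    exact ⟨n, inj₁ (by rw [pow_intertw (ap_intertw b₁), map_zero]; exact hn)⟩
  · rw [Submodule.finrank_eq_zero, Submodule.eq_bot_iff]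
    rintro v ⟨n, hn⟩
    refine inj₂ ((Submodule.disjoint_def.1 c.disjoint _ ⟨n, ?_⟩ (e₂ v).2).trans (map_zero _).symm)
    exact (pow_intertw (ap_intertw b₂) n v).symm.trans (by rw [hn, map_zero])
  · refine LinearMap.ext fun v => ?_
    obtain ⟨v, rfl⟩ := g.1.surjective v
    rw [LinearEquiv.conj_apply_apply, LinearEquiv.symm_apply_apply]
    exact (congrArg₂ (· + ·) (b₁ v.1) (b₂ v.2)).trans (map_add f _ _).symm

omit [FiniteDimensional F V] [FiniteDimensional F V'] in
theorem Rl.prod {a : End F V} {b : End F V'} (r : Rl t B a) (r' : Rl t B' b) :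
    Rl t (prodForm B B') (a.prodMap b) := fun u v => by
  have r₁ := r u.1 v.1
  have r₂ := r' u.2 v.2
  cases t <;> simp at r₁ r₂ ⊢ <;> linear_combination r₁ + r₂

theorem cn_prod (hB : IsSp B) (hB' : IsSp B') :
    cn t (prodForm B B') (finrank F V) * (Nat.card (Isom B) * Nat.card (Isom B')) =
      Nat.card (Isom (prodForm B B')) * (cn t B (finrank F V) * cn t B' 0) := by
  let φ : {f | Rl t B f ∧ finrank F (gk (ap t f)) = finrank F V} ×
      {f | Rl t B' f ∧ finrank F (gk (ap t f)) = 0} → End F (V × V') := fun y => y.1.1.prodMap y.2.1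
  have hφ : Function.Injective φ := fun y z e => Prod.ext
    (Subtype.ext (LinearMap.ext fun v => congrArg Prod.fst (LinearMap.congr_fun e (v, 0))))
    (Subtype.ext (LinearMap.ext fun v => congrArg Prod.snd (LinearMap.congr_fun e (0, v))))
  have hap : ∀ (f : End F V) (f' : End F V'), ap t (f.prodMap f' : End F (V × V')) =
      (ap t f).prodMap (ap t f') := fun f f' => LinearMap.ext fun v => Prod.ext
    (ap_intertw (e := LinearMap.fst F V V') (fun _ => rfl) v)
    (ap_intertw (e := LinearMap.snd F V V') (fun _ => rfl) v)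
  rw [cn, cn, cn, ← Nat.card_prod (Isom B), ← Nat.card_prod (Set.Elem (α := End F V) _),
    ← Nat.card_range_of_injective hφ,
    Nat.card_congr (MonoidHom.ofInjective (Isom.prodHom_injective B B')).toEquiv]
  refine card_conj _ _ _ _ ?_ ?_ fun f => ⟨fun ⟨r, h⟩ => ?_, ?_⟩
  · rintro _ ⟨⟨g, g'⟩, rfl⟩ _ ⟨⟨a, b⟩, rfl⟩
    exact ⟨⟨⟨g.1.conj a, (mem_conj g.1 g.2 _).2 a.2⟩, ⟨g'.1.conj b, (mem_conj g'.1 g'.2 _).2 b.2⟩⟩,
      rfl⟩
  · rintro g _ ⟨⟨a, b⟩, rfl⟩ ⟨⟨a', b'⟩, e⟩
    have e' : ∀ v, g.1.toLinearMap (φ (a, b) v) = φ (a', b') (g.1.toLinearMap v) := fun v => by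
      simp [e, LinearEquiv.conj_apply]
    obtain ⟨h3, h4⟩ := H4.fit_block_diag g.1.toLinearMap (finrank_gk_top.1 a.2.2)
      (finrank_gk_top.1 a'.2.2) (LinearEquiv.ofInjectiveEndo _ (finrank_gk_bot.1 b.2.2))
      (LinearEquiv.ofInjectiveEndo _ (finrank_gk_bot.1 b'.2.2))
      fun v => by
        have := ap_intertw (t := t) e' v
        rwa [hap, hap] at this
    obtain ⟨c, d, h5⟩ := eq_prodMap _ h3 h4
    replace h5 : ∀ x y, g.1 (x, y) = (c x, d y) := h5
    refine ⟨(hB.isEps.toIsom c fun u v => ?_, hB'.isEps.toIsom d fun u v => ?_),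
      Subtype.ext (LinearEquiv.ext fun v => (h5 v.1 v.2).symm)⟩
    · simpa [h5] using g.2 (u, 0) (v, 0)
    · simpa [h5] using g.2 (0, u) (0, v)
  · obtain ⟨g, a, b, ha, hb, e⟩ := exists_split hB hB' r h
    exact ⟨g, _, ⟨(⟨a, ha⟩, ⟨b, hb⟩), rfl⟩, e⟩
  · rintro ⟨g, _, ⟨⟨a, b⟩, rfl⟩, rfl⟩
    refine (mem_conj g.1 g.2 _).2 ⟨a.2.1.prod b.2.1, ?_⟩
    rw [hap]
    exact finrank_gk_prod (finrank_gk_top.1 a.2.2) (finrank_gk_bot.1 b.2.2)

end Cfsg.Agent.H6
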