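import Cfsg.Agent.H6.SpUn1

/-! The pieces of the Fitting counts on symplectic spaces. -/

set_option autoImplicit false

namespace Cfsg.Agent.H6

open Module H5

universe u

variable {F : Type u} [Field F] {V : Type u} [AddCommGroup V] [Module F V] [FiniteDimensional F V]
  {B : Bil F V}

theorem card_rl_true (hB : IsSp B) : Nat.card {f | Rl true B f} = Nat.card (Isom B) :=
  Nat.card_congr ⟨fun f => hB.isEps.toIsom f.1 f.2, fun g => ⟨g.1, g.2⟩, fun _ => rfl,
    fun _ => Subtype.ext (LinearEquiv.ext fun _ => rfl)⟩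

theorem cn_zero (hB : IsSp B) : cn true B 0 = cn false B 0 := by
  have key : ∀ f g : End F V, (1 - f) * g = 1 → (Rl true B f ↔ Rl false B g) := fun f g e => by
    have e' := mul_eq_one_comm.1 e
    have a : ∀ v, g v - f (g v) = v := LinearMap.congr_fun e
    have b : ∀ v, g (v - f v) = v := LinearMap.congr_fun e'
    refine ⟨fun r u v => ?_, fun r u v => ?_⟩
    · have := r (g u) (g v)
      rw [if_pos rfl] at this
      rw [if_neg Bool.false_ne_true]
      nth_rw 1 3 [← a v]
      nth_rw 2 3 [← a u]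
      simp only [map_sub, LinearMap.sub_apply]
      linear_combination -this
    · have := r (u - f u) (v - f v)
      rw [if_neg Bool.false_ne_true, b, b] at this
      simp only [map_sub, LinearMap.sub_apply] at this
      rw [if_pos rfl]
      linear_combination -this
  have iu : ∀ f : End F V, Function.Injective f ↔ IsUnit f := fun f => by
    rw [LinearMap.isUnit_iff_ker_eq_bot, LinearMap.ker_eq_bot]
  have c : ∀ t, cn t B 0 = Nat.card {f // Rl t B f ∧ IsUnit (ap t f)} := fun t =>
    Nat.card_congr (Equiv.subtypeEquivRight fun f => and_congr_right' (finrank_gk_bot.trans (iu _)))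
  rw [c, c]
  change Nat.card {f // Rl true B f ∧ IsUnit (1 - f)} =
    Nat.card {f // Rl false B f ∧ IsUnit (f * (1 - f))}
  refine Nat.card_eq_of_bijective (fun f => ⟨(f.2.2.unit⁻¹).1, (key _ _ f.2.2.mul_val_inv).1 f.2.1,
    (Units.isUnit _).mul ?_⟩) ⟨fun f g e => ?_, fun ⟨g, r, h⟩ => ?_⟩
  · have : 1 - (f.2.2.unit⁻¹).1 = -f.1 * (f.2.2.unit⁻¹).1 := by
      rw [sub_eq_iff_eq_add, ← add_one_mul, neg_add_eq_sub, f.2.2.mul_val_inv]
    rw [this]
    exact ((iu _).1 (hB.isEps.injective_of_pres f.2.1)).neg.mul (Units.isUnit _)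
  · have : f.2.2.unit = g.2.2.unit := inv_injective (Units.ext (congrArg Subtype.val e))
    exact Subtype.ext (sub_right_injective (b := 1) (by simpa using congrArg Units.val this))
  · obtain ⟨c, rfl⟩ := isUnit_of_mul_isUnit_left h
    refine ⟨⟨1 - (c⁻¹).1, (key _ c (by simp)).2 r, by simp⟩, Subtype.ext ?_⟩
    exact Units.inv_eq_of_mul_eq_one_left (by simp)

omit [FiniteDimensional F V] in
theorem comm_one_sub (f : End F V) : Commute f (1 - f) :=
  (Commute.one_right f).sub_right (Commute.refl f)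

omit [FiniteDimensional F V] in
theorem inj_one_sub {f : End F V} (h : IsNilpotent f) : Function.Injective (1 - f : End F V) :=
  ((End.isUnit_iff _).1 h.isUnit_one_sub).1

omit [FiniteDimensional F V] in
theorem nil_ap {f : End F V} (h : IsNilpotent f) :
    IsNilpotent (ap false f) ∧ IsNilpotent (ap false (1 - f)) :=
  ⟨(comm_one_sub f).isNilpotent_mul_right h, by
    simpa [ap] using (comm_one_sub f).symm.isNilpotent_mul_left h⟩

/-- The hyperbolic form on `L × L*`. -/
def hyp (F : Type u) [Field F] (L : Type u) [AddCommGroup L] [Module F L] : Bil F (L × Dual F L) :=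
  LinearMap.mk₂ F (fun x y => y.2 x.1 - x.2 y.1) (by intros; simp; ring) (by intros; simp; ring)
    (by intros; simp; ring) (by intros; simp; ring)

omit [FiniteDimensional F V] in
@[simp] theorem hyp_apply (x y : V × Dual F V) : hyp F V x y = y.2 x.1 - x.2 y.1 := rfl

omit [FiniteDimensional F V] in
theorem isSp_hyp : IsSp (hyp F V) := ⟨fun v => by simp, fun u h => Prod.ext
  ((forall_dual_apply_eq_zero_iff F u.1).1 fun φ => by simpa using h (0, φ))
  (LinearMap.ext fun v => by simpa using h (v, 0))⟩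

theorem finrank_hyp : finrank F (V × Dual F V) = 2 * finrank F V := by
  rw [finrank_prod, Subspace.dual_finrank_eq, two_mul]

theorem card_rl_false [Fintype F] : Nat.card {f | Rl false (hyp F V) f} =
    Fintype.card F ^ (finrank F V * (2 * finrank F V + 1)) := by
  classical
  let b := finBasis F (V × Dual F V)
  let p : End F (V × Dual F V) := LinearMap.inl F _ _ ∘ₗ LinearMap.fst F _ _
  have hp : ∀ u v, hyp F V (p u) v + hyp F V u (p v) = hyp F V u v := fun u v => by simp [p]; ring
  have sk := isSp_hyp (F := F) (V := V).skew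
  have : Fintype.card F ^ (finrank F V * (2 * finrank F V + 1)) =
      Nat.card (Sym2 (Fin (finrank F (V × Dual F V))) → F) := by
    rw [Nat.card_eq_fintype_card, Fintype.card_fun, Sym2.card, Fintype.card_fin, finrank_hyp,
      Nat.choose_two_right, Nat.add_sub_cancel, mul_comm (2 * _ + 1), mul_assoc,
      Nat.mul_div_cancel_left _ two_pos]
  rw [this]
  refine Nat.card_eq_of_bijective (fun f => Sym2.lift ⟨fun i j => hyp F V ((f.1 - p) (b i)) (b j),
    fun i j => ?_⟩) ⟨fun f g e => ?_, fun s => ?_⟩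
  · have := f.2 (b i) (b j)
    rw [if_neg Bool.false_ne_true, ← hp (b i) (b j)] at this
    simp only [LinearMap.sub_apply, map_sub]
    linear_combination this - sk (b i) (f.1 (b j)) + sk (b i) (p (b j))
  · refine Subtype.ext (sub_left_injective (b := p) (b.ext fun i => isSp_hyp.isEps.ext_left
      (LinearMap.congr_fun (b.ext fun j => congrFun e s(i, j)))))
  · obtain ⟨f, hf⟩ := isSp_hyp.isEps.exists_end
      (Matrix.toLinearMap₂ b b (Matrix.of fun i j => s s(i, j)))
    have h1 : ∀ i j, hyp F V (f (b i)) (b j) = s s(i, j) := fun i j => by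
      rw [hf, Matrix.toLinearMap₂_apply]; simp [Finsupp.single_apply]
    have h2 : (hyp F V).comp f = ((hyp F V).comp f).flip :=
      LinearMap.ext_basis b b fun i j => by
        change hyp F V (f (b i)) (b j) = hyp F V (f (b j)) (b i)
        rw [h1, h1, Sym2.eq_swap]
    refine ⟨⟨f + p, fun u v => ?_⟩, funext fun z => ?_⟩
    · have : hyp F V (f u) v = hyp F V (f v) u := LinearMap.congr_fun₂ h2 u v
      rw [if_neg Bool.false_ne_true, ← hp u v]
      simp only [LinearMap.add_apply, map_add]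
      linear_combination this + sk u (f v)
    · obtain ⟨i, j⟩ := z
      simpa using h1 i j

theorem exists_lag {W : Type u} [AddCommGroup W] [Module F W] [FiniteDimensional F W] {C : Bil F W}
    (hB : IsSp C) (hd : finrank F W = 2 * finrank F V) {f : End F W} (r : Rl false C f)
    (h : IsNilpotent (f * (1 - f))) : ∃ (g : V × Dual F V →ₗ[F] W) (N : End F V), IsNilpotent N ∧
      (∀ u v, C (g u) (g v) = hyp F V u v) ∧ ∀ x φ, g (N x, φ - N.dualMap φ) = f (g (x, φ)) := by
  obtain ⟨n, hn⟩ := h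
  have cm := comm_one_sub f
  rw [cm.mul_pow] at hn
  have hn' : (1 - f) ^ n * f ^ n = 0 := by rwa [(cm.pow_pow n n).symm.eq]
  have a₁ : ∀ (k : ℕ) u v, C ((f ^ k) u) v = C u (((1 - f) ^ k) v) := fun k => by
    induction k with
    | zero => simp
    | succ k ih =>
      intro u v
      have := r ((f ^ k) u) v
      rw [if_neg Bool.false_ne_true] at this
      rw [pow_succ', pow_succ, End.mul_apply, End.mul_apply, ← ih, LinearMap.sub_apply, map_sub]
      exact eq_sub_of_add_eq this
  set P := LinearMap.range ((1 - f) ^ n)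
  set P' := LinearMap.range (f ^ n)
  have t₁ : P ≤ perp C P := by
    rintro _ ⟨u, rfl⟩
    refine mem_perp.2 ?_
    rintro _ ⟨v, rfl⟩
    rw [← a₁, ← End.mul_apply, hn, LinearMap.zero_apply, map_zero, LinearMap.zero_apply]
  have t₂ : P' ≤ perp C P' := by
    rintro _ ⟨u, rfl⟩
    refine mem_perp.2 ?_
    rintro _ ⟨v, rfl⟩
    rw [a₁, ← End.mul_apply, hn', LinearMap.zero_apply, map_zero]
  have t₃ : P ⊔ P' = ⊤ := by
    obtain ⟨a, b, e⟩ : IsCoprime ((1 - Polynomial.X) ^ n : Polynomial F) (Polynomial.X ^ n) :=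
      IsCoprime.pow ⟨1, 1, by simp⟩
    refine eq_top_iff.2 fun v _ => ?_
    rw [mul_comm a, mul_comm b] at e
    have := LinearMap.congr_fun (congrArg (Polynomial.aeval f) e) v
    simp only [map_add, map_mul, map_pow, map_sub, map_one, Polynomial.aeval_X] at this
    rw [← show _ = v from this]
    exact Submodule.add_mem_sup ⟨_, rfl⟩ ⟨_, rfl⟩
  have d₁ := Submodule.finrank_mono t₁
  have d₂ := Submodule.finrank_mono t₂
  have d₃ := hB.isEps.finrank_perp P
  have d₄ := hB.isEps.finrank_perp P'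
  have d₅ := Submodule.finrank_sup_add_finrank_inf_eq P P'
  rw [t₃, finrank_top] at d₅
  rw [hd] at d₃ d₄ d₅
  let α : V ≃ₗ[F] P := LinearEquiv.ofFinrankEq _ _ (by omega)
  let β₀ : P' →ₗ[F] Dual F V :=
    (C.comp (P.subtype ∘ₗ α.toLinearMap)).flip ∘ₗ P'.subtype
  have hβ : Function.Injective β₀ := (injective_iff_map_eq_zero _).2 fun y hy =>
    Subtype.ext (hB.isEps.nondeg' _ fun u => by
      obtain ⟨a, ha, b, hb, rfl⟩ := Submodule.mem_sup.1 (t₃ ▸ Submodule.mem_top : u ∈ P ⊔ P')
      obtain ⟨x, hx⟩ := α.surjective ⟨a, ha⟩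
      rw [map_add, LinearMap.add_apply, mem_perp.1 (t₂ hb) _ y.2, add_zero,
        show a = α x from (congrArg Subtype.val hx).symm]
      exact LinearMap.congr_fun hy x)
  let β := LinearEquiv.ofBijective β₀ ⟨hβ, (LinearMap.injective_iff_surjective_of_finrank_eq_finrank
    (by rw [Subspace.dual_finrank_eq]; omega)).1 hβ⟩
  have hab : ∀ x φ, C (α x) (β.symm φ) = φ x := fun x φ =>
    LinearMap.congr_fun (β.apply_symm_apply φ) x
  have i₁ : ∀ v ∈ P, f v ∈ P := by
    rintro _ ⟨v, rfl⟩
    exact ⟨f v, LinearMap.congr_fun (cm.pow_right n).symm.eq v⟩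
  have i₂ : ∀ v ∈ P', f v ∈ P' := by
    rintro _ ⟨v, rfl⟩
    exact ⟨f v, LinearMap.congr_fun ((Commute.refl f).pow_left n).eq v⟩
  have b₁ : ∀ v, (α (α.symm.conj (f.restrict i₁) v) : W) = f (α v) := fun v => by
    simp [LinearEquiv.conj_apply]
  refine ⟨(P.subtype ∘ₗ α.toLinearMap).coprod (P'.subtype ∘ₗ β.symm.toLinearMap),
    α.symm.conj (f.restrict i₁), ⟨n, LinearMap.ext fun v => α.injective (Subtype.ext ?_)⟩,
    fun u v => ?_, fun x φ => ?_⟩
  · obtain ⟨w, hw⟩ := (α v).2
    refine (pow_intertw (e := P.subtype ∘ₗ α.toLinearMap) b₁ n v).trans ?_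
    change (f ^ n) (α v) = _
    rw [← hw, ← End.mul_apply, hn]
    simp
  · change C (α u.1 + β.symm u.2) (α v.1 + β.symm v.2) = _
    simp only [map_add, LinearMap.add_apply]
    rw [mem_perp.1 (t₁ (α _).2) _ (α _).2, mem_perp.1 (t₂ (β.symm _).2) _ (β.symm _).2,
      hB.skew (α _), hab, hab, hyp_apply]
    ring
  · change (α _ + β.symm _ : W) = f (α x + β.symm φ)
    rw [map_add]
    refine congrArg₂ (· + ·) (b₁ x) ?_
    refine congrArg Subtype.val (β.symm_apply_eq.2 (LinearMap.ext fun y => ?_) :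
      _ = (⟨_, i₂ _ (β.symm φ).2⟩ : P'))
    have := r (α y) (β.symm φ)
    rw [if_neg Bool.false_ne_true, ← b₁, hab, hab] at this
    exact (eq_sub_of_add_eq' this).symm

theorem cn_hyp : cn false (hyp F V) (2 * finrank F V) * Nat.card (V ≃ₗ[F] V) =
    Nat.card (Isom (hyp F V)) * Nat.card {N : End F V // IsNilpotent N} := by
  let φ : {N : End F V // IsNilpotent N} → End F (V × Dual F V) :=
    fun N => N.1.prodMap (1 - N.1.dualMap)
  have hφ : Function.Injective φ := fun y z e =>
    Subtype.ext (LinearMap.ext fun v => congrArg Prod.fst (LinearMap.congr_fun e (v, 0)))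
  let ψ : (V ≃ₗ[F] V) →* Isom (hyp F V) :=
    MonoidHom.mk' (fun a => ⟨a.prodCongr a.symm.dualMap, fun u v => by simp⟩) fun a b => rfl
  have hψ : Function.Injective ψ := fun a b e => LinearEquiv.ext fun v =>
    congrArg Prod.fst (LinearEquiv.congr_fun (congrArg Subtype.val e) (v, 0))
  have nd : ∀ N : End F V, IsNilpotent N → IsNilpotent (N.dualMap : End F (Dual F V)) :=
    fun N ⟨n, h⟩ => ⟨n, by
      have : ∀ k : ℕ, (N.dualMap : End F (Dual F V)) ^ k = (N ^ k).dualMap := fun k => by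
        induction k with
        | zero => rfl
        | succ k ih => rw [pow_succ', ih, pow_succ]; rfl
      rw [this, h]; ext; simp⟩
  rw [cn, ← Nat.card_range_of_injective hφ, Nat.card_congr (MonoidHom.ofInjective hψ).toEquiv]
  refine card_conj _ _ _ _ ?_ ?_ fun f => ⟨fun ⟨r, h⟩ => ?_, ?_⟩
  · rintro _ ⟨a, rfl⟩ _ ⟨N, rfl⟩
    refine ⟨⟨a.conj N.1, N.2.map (a.conjAlgEquiv F)⟩, LinearMap.ext fun v => Prod.ext rfl ?_⟩
    refine LinearMap.ext fun x => ?_
    change v.2 x - v.2 (a (N.1 (a.symm x))) = v.2 (a (a.symm x)) - v.2 (a (N.1 (a.symm x)))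
    rw [a.apply_symm_apply]
  · rintro g _ ⟨a, rfl⟩ ⟨a', e⟩
    have e' : ∀ v, g.1.toLinearMap (φ a v) = φ a' (g.1.toLinearMap v) := fun v => by
      simp [e, LinearEquiv.conj_apply]
    have inj : ∀ N : End F V, IsNilpotent N → Function.Injective (1 - N.dualMap : End F _) :=
      fun N h => inj_one_sub (nd N h)
    obtain ⟨h3, h4⟩ := H4.fit_block_diag g.1.toLinearMap a.2 a'.2
      (LinearEquiv.ofInjectiveEndo _ (inj _ a.2)) (LinearEquiv.ofInjectiveEndo _ (inj _ a'.2)) e'
    obtain ⟨c, d, h5⟩ := eq_prodMap _ h3 h4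
    replace h5 : ∀ x y, g.1 (x, y) = (c x, d y) := h5
    have hc : Function.Injective c := fun x y e => congrArg Prod.fst
      (g.1.injective (a₁ := (x, 0)) (a₂ := (y, 0)) (by rw [h5, h5, e]))
    refine ⟨LinearEquiv.ofInjectiveEndo c hc, Subtype.ext (LinearEquiv.ext fun v => ?_)⟩
    refine Eq.trans (b := (c v.1, d v.2)) (Prod.ext rfl (LinearMap.ext fun x => ?_))
      (h5 v.1 v.2).symm
    obtain ⟨x, rfl⟩ := (LinearEquiv.ofInjectiveEndo c hc).surjective x
    refine (congrArg v.2 ((LinearEquiv.ofInjectiveEndo c hc).symm_apply_apply x)).trans ?_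
    simpa [h5] using (g.2 (x, 0) (0, v.2)).symm
  · obtain ⟨g, N, h1, h2, h3⟩ := exists_lag isSp_hyp finrank_hyp r
      (finrank_gk_top.1 (h.trans finrank_hyp.symm))
    refine ⟨isSp_hyp.isEps.toIsom g h2, _, ⟨⟨N, h1⟩, rfl⟩, LinearMap.ext fun v => ?_⟩
    obtain ⟨v, rfl⟩ := (isSp_hyp.isEps.toIsom g h2).1.surjective v
    rw [LinearEquiv.conj_apply_apply, LinearEquiv.symm_apply_apply]
    exact h3 v.1 v.2
  · rintro ⟨g, _, ⟨N, rfl⟩, rfl⟩
    refine (mem_conj g.1 g.2 _).2 ⟨fun u v => by simp [φ]; ring, ?_⟩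
    rw [← finrank_hyp, finrank_gk_top]
    obtain ⟨m, hm⟩ := (nil_ap N.2).1
    obtain ⟨n, hn⟩ := (nil_ap (nd _ N.2)).2
    refine ⟨m + n, LinearMap.ext fun v => Prod.ext ?_ ?_⟩
    · refine (pow_intertw (e := LinearMap.fst F V _)
        (ap_intertw (f := φ N) (f' := N.1) fun _ => rfl) _ v).trans ?_
      simp [pow_add, hm]
    · refine (pow_intertw (e := LinearMap.snd F V _)
        (ap_intertw (f := φ N) (f' := 1 - N.1.dualMap) fun _ => rfl) _ v).trans ?_
      rw [pow_add, hn, mul_zero]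
      rfl

end Cfsg.Agent.H6
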