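import Cfsg.Agent.H6.SpUn2

/-! The number of unipotent elements of the symplectic group. -/

set_option autoImplicit false

namespace Cfsg.Agent.H6

open Module H5 PowerSeries

/-- The product `(1 - y) ⋯ (1 - y ^ m)`. -/
def qp (y : ℚ) (m : ℕ) : ℚ := ∏ i ∈ Finset.range m, (1 - y ^ (i + 1))

/-- Euler's series. -/
noncomputable def eul (y : ℚ) : ℚ⟦X⟧ := mk fun m => (qp y m)⁻¹

theorem one_sub_ne {y : ℚ} (h0 : 0 ≤ y) (h : y < 1) (i : ℕ) : 1 - y ^ (i + 1) ≠ 0 :=
  (sub_pos.2 (pow_lt_one₀ h0 h i.succ_ne_zero)).ne'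

theorem eul_eq {y : ℚ} (h0 : 0 ≤ y) (h : y < 1) : rescale y (eul y) = (1 - X) * eul y := by
  ext n
  rw [sub_mul, one_mul, map_sub, coeff_rescale]
  rcases n with _ | n
  · simp
  · have := one_sub_ne h0 h n
    simp only [coeff_succ_X_mul, eul, coeff_mk, qp, Finset.prod_range_succ]
    field_simp
    ring

theorem eq_eul {y : ℚ} (h0 : 0 ≤ y) (h : y < 1) {f : ℚ⟦X⟧} (e : rescale y f = (1 - X) * f)
    (e0 : coeff 0 f = 1) : f = eul y := by
  ext n
  induction n with
  | zero => simp [e0, eul, qp]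
  | succ n ih =>
    have := congrArg (coeff (n + 1)) e
    rw [sub_mul, one_mul, map_sub, coeff_rescale, coeff_succ_X_mul, ih] at this
    have h1 := one_sub_ne h0 h n
    simp only [eul, coeff_mk, qp, Finset.prod_range_succ] at this ⊢
    rw [mul_inv, eq_mul_inv_iff_mul_eq₀ h1]
    linear_combination -this

theorem eul_sq {y : ℚ} (h0 : 0 ≤ y) (h : y < 1) :
    eul (y * y) * rescale y (eul (y * y)) = eul y := by
  refine eq_eul h0 h ?_ (by simp [coeff_mul, coeff_rescale, eul, qp])
  rw [map_mul, rescale_rescale, eul_eq (by positivity) (by nlinarith)]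
  ring

universe u

variable (F : Type u) [Field F] [Fintype F]

/-- The symplectic form in dimension `2 * m`. -/
abbrev hy (m : ℕ) := hyp F (Fin m → F)

omit [Fintype F] in
theorem finrank_hy (m : ℕ) : finrank F ((Fin m → F) × Dual F (Fin m → F)) = 2 * m := by
  rw [finrank_hyp]; simp

theorem card_hy (m : ℕ) : (Nat.card (Isom (hy F m)) : ℚ) =
    (Fintype.card F : ℚ) ^ (m * (2 * m + 1)) * qp ((Fintype.card F : ℚ)⁻¹ * (Fintype.card F : ℚ)⁻¹) m := by
  rw [isSp_hyp.card_Isom (finrank_hy F m)]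
  have : (Fintype.card F : ℚ) ≠ 0 := by simp
  induction m with
  | zero => simp [qp]
  | succ m ih =>
    rw [Finset.prod_range_succ, qp, Finset.prod_range_succ, ← qp]
    push_cast [Nat.cast_sub (Nat.one_le_pow _ _ (Fintype.card_pos (α := F)))] at ih ⊢
    rw [show (m + 1) ^ 2 = 2 * m + 1 + m ^ 2 by ring, pow_add, mul_assoc, ← mul_assoc (_ ^ m ^ 2), ih,
      mul_pow _ _ (m + 1), inv_pow]
    field_simp
    ring

theorem card_gl (m : ℕ) : (Nat.card (GL (Fin m) F) : ℚ) =
    (Fintype.card F : ℚ) ^ (m * m) * qp (Fintype.card F : ℚ)⁻¹ m := by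
  rw [card_GL_prod]
  have : (Fintype.card F : ℚ) ≠ 0 := by simp
  induction m with
  | zero => simp [qp]
  | succ m ih =>
    rw [Finset.prod_range_succ, Finset.prod_range_succ, qp, Finset.prod_range_succ, ← qp]
    push_cast [Nat.cast_sub (Nat.one_le_pow _ _ (Fintype.card_pos (α := F)))] at ih ⊢
    rw [mul_mul_mul_comm, ih, inv_pow]
    field_simp
    ring

theorem card_hy_ne (m : ℕ) : (Nat.card (Isom (hy F m)) : ℚ) ≠ 0 := by
  rw [card_hy, qp]
  have h1 : (Fintype.card F : ℚ)⁻¹ < 1 := inv_lt_one_of_one_lt₀ (by exact_mod_cast Fintype.one_lt_card)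
  have h0 : 0 ≤ (Fintype.card F : ℚ)⁻¹ := by positivity
  exact mul_ne_zero (by simp) (Finset.prod_ne_zero_iff.2 fun i _ =>
    one_sub_ne (by positivity) (by nlinarith) i)

theorem fit_series (t : Bool) :
    (mk fun m => (Nat.card {f | Rl t (hy F m) f} : ℚ) / Nat.card (Isom (hy F m))) =
      (mk fun m => (cn t (hy F m) (2 * m) : ℚ) / Nat.card (Isom (hy F m))) *
        mk fun m => (cn t (hy F m) 0 : ℚ) / Nat.card (Isom (hy F m)) := by
  classical
  ext m
  have := finite_of_finiteDimensional F (End F ((Fin m → F) × Dual F (Fin m → F)))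
  have := Fintype.ofFinite {f | Rl t (hy F m) f}
  have h2 := Finset.card_eq_sum_card_fiberwise (s := (Finset.univ : Finset {f | Rl t (hy F m) f}))
    (t := Finset.range (m + 1)) (f := fun f => finrank F (gk (ap t f.1)) / 2) fun f _ => by
      have := Submodule.finrank_le (gk (ap t f.1))
      rw [finrank_hy] at this
      simp; omega
  rw [coeff_mul, Finset.Nat.sum_antidiagonal_eq_sum_range_succ_mk, coeff_mk,
    Nat.card_eq_fintype_card, ← Finset.card_univ, h2, Nat.cast_sum, Finset.sum_div]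
  refine Finset.sum_congr rfl fun j hj => ?_
  obtain ⟨k, rfl⟩ := Nat.exists_eq_add_of_le (Nat.lt_succ_iff.1 (Finset.mem_range.1 hj))
  have hP := (isSp_hyp (F := F) (V := Fin j → F)).prod (isSp_hyp (V := Fin k → F))
  have d : finrank F (((Fin j → F) × Dual F (Fin j → F)) × (Fin k → F) × Dual F (Fin k → F)) =
      finrank F ((Fin (j + k) → F) × Dual F (Fin (j + k) → F)) := by
    rw [finrank_prod, finrank_hy, finrank_hy, finrank_hy, mul_add]
  have e := cn_prod (t := t) (isSp_hyp (F := F) (V := Fin j → F)) (isSp_hyp (V := Fin k → F))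
  rw [finrank_hy, cn_congr hP isSp_hyp d, card_Isom_eq hP.good isSp_hyp.good d] at e
  rw [coeff_mk, coeff_mk, Nat.add_sub_cancel_left, div_mul_div_comm,
    div_eq_div_iff (card_hy_ne F _) (mul_ne_zero (card_hy_ne F _) (card_hy_ne F _)),
    ← Fintype.card_subtype, ← Nat.card_eq_fintype_card, mul_comm (_ * _ : ℚ)]
  rw [show Nat.card {f : {f | Rl t (hy F (j + k)) f} // finrank F (gk (ap t f.1)) / 2 = j} =
    cn t (hy F (j + k)) (2 * j) from Nat.card_congr ((Equiv.subtypeSubtypeEquivSubtypeInter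
      (Rl t (hy F (j + k))) fun f => finrank F (gk (ap t f)) / 2 = j).trans (Equiv.subtypeEquivRight fun f =>
        and_congr_right fun r => by have := Nat.even_iff.1 (Rl.even isSp_hyp r); omega))]
  exact_mod_cast e

theorem cn_unip (m : ℕ) : cn true (hy F m) (2 * m) = Fintype.card F ^ (2 * m ^ 2) := by
  have hq : (Fintype.card F : ℚ) ≠ 0 := by simp
  set y := (Fintype.card F : ℚ)⁻¹ with hy'
  have h1 : y < 1 := inv_lt_one_of_one_lt₀ (by exact_mod_cast Fintype.one_lt_card)
  have h0 : 0 ≤ y := by positivity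
  have e₁ := fit_series F true
  have e₂ := fit_series F false
  simp only [card_rl_true isSp_hyp, div_self (card_hy_ne F _), cn_zero isSp_hyp] at e₁
  have a₁ : (mk fun m => (Nat.card {f | Rl false (hy F m) f} : ℚ) / Nat.card (Isom (hy F m))) =
      eul (y * y) := by
    ext m
    rw [coeff_mk, card_rl_false, card_hy, eul, coeff_mk, finrank_fin_fun, Nat.cast_pow,
      div_mul_cancel_left₀ (by simp)]
  have a₂ : (mk fun m => (cn false (hy F m) (2 * m) : ℚ) / Nat.card (Isom (hy F m))) =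
      rescale y (eul y) := by
    ext m
    have e := cn_hyp (F := F) (V := Fin m → F)
    rw [finrank_fin_fun, H4.card_linearEquiv_eq (n := m) (by simp) (by simp), ← H4.nilNum,
      H4.nilNum_eq] at e
    have e' := congrArg (Nat.cast (R := ℚ)) e
    have : qp y m ≠ 0 := Finset.prod_ne_zero_iff.2 fun i _ => one_sub_ne h0 h1 i
    push_cast [card_gl] at e'
    rw [coeff_mk, coeff_rescale, eul, coeff_mk, div_eq_iff (card_hy_ne F _),
      eq_div_of_mul_eq (mul_ne_zero (by simp) this) e', hy']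
    rcases m with _ | m
    · simp
    · rw [Nat.add_sub_cancel, inv_pow]
      field_simp
      ring
  rw [a₁, a₂, eul_eq h0 h1, ← eul_sq h0 h1, mul_comm (1 - X), mul_assoc, mul_assoc] at e₂
  have e₃ := mul_left_cancel₀ (fun z => by simpa [eul, qp] using congrArg (coeff 0) z)
    ((mul_one _).trans e₂)
  have e₄ := congrArg (· * (1 - X)) e₁
  simp only [show (mk fun _ => (1 : ℚ)) * (1 - X) = 1 from mk_one_mul_one_sub_eq_one ℚ] at e₄
  rw [mul_assoc, mul_comm _ (1 - X)] at e₄
  have e₅ := congrArg (coeff m) (mul_right_cancel₀ (right_ne_zero_of_mul_eq_one e₃.symm)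
    (e₄.symm.trans e₃))
  rw [coeff_mk, coeff_rescale, eul, coeff_mk, div_eq_iff (card_hy_ne F _), card_hy] at e₅
  have : qp (y * y) m ≠ 0 := Finset.prod_ne_zero_iff.2 fun i _ =>
    one_sub_ne (by positivity) (by nlinarith) i
  apply Nat.cast_injective (R := ℚ)
  rw [e₅, ← hy', mul_mul_mul_comm, inv_mul_cancel₀ this, hy', inv_pow]
  push_cast
  field_simp
  ring

end Cfsg.Agent.H6
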