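import Cfsg.Agent.H6.St3

/-! Fixed cosets of standard parabolic subgroups of `GL_n` are invariant flags. -/

set_option autoImplicit false
open Finset Polynomial UniqueFactorizationMonoid
open scoped MatrixGroups Matrix

namespace Cfsg.Agent.H6

universe u

variable {F : Type u} [Field F] {n : ℕ}

/-- The members of the standard flag of type `μ`. -/
def stdFl (F : Type u) [Field F] (μ : Fin n → ℕ) (k : ℕ) : Submodule F (Fin n → F) where
  carrier := {v | ∀ i, k ≤ compLabel μ i → v i = 0}
  add_mem' := fun {a b} ha hb i hi => by rw [Pi.add_apply, ha i hi, hb i hi, add_zero]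
  zero_mem' := fun _ _ => rfl
  smul_mem' := fun c a ha i hi => by rw [Pi.smul_apply, ha i hi, smul_zero]

theorem stdFl_mono (μ : Fin n → ℕ) : Monotone (stdFl F μ) :=
  fun _ _ hkl _ hv i hi => hv i (hkl.trans hi)

theorem finrank_stdFl (μ : Fin n → ℕ) (hμ : ∑ j, μ j = n) (k : ℕ) (hk : k ≤ n) :
    Module.finrank F (stdFl F μ k) = psum μ k := by
  let f : stdFl F μ k →ₗ[F] ({i // compLabel μ i < k} → F) :=
    (LinearMap.funLeft F F Subtype.val).comp (stdFl F μ k).subtype
  have hf : Function.Bijective f := by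
    constructor
    · rw [injective_iff_map_eq_zero]
      intro v hv
      ext i
      by_cases hi : compLabel μ i < k
      · exact congrFun hv ⟨i, hi⟩
      · exact v.2 i (not_lt.1 hi)
    · intro w
      refine ⟨⟨fun i => if h : compLabel μ i < k then w ⟨i, h⟩ else 0,
        fun i hi => dif_neg (not_lt.2 hi)⟩, ?_⟩
      funext i
      exact dif_pos i.2
  rw [(LinearEquiv.ofBijective f hf).finrank_eq, Module.finrank_fintype_fun_eq_card,
    Fintype.card_subtype, card_compLabel_lt μ hμ k hk]

theorem mem_parabolic_iff (μ : Fin n → ℕ) (hμ : ∑ j, μ j = n) (g : GL (Fin n) F) :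
    g ∈ parabolicGL n F μ ↔ ∀ k : Fin (n + 1),
      (stdFl F μ k).map (Matrix.toLin' (g : Matrix (Fin n) (Fin n) F)) ≤ stdFl F μ k := by
  constructor
  · rintro hg k _ ⟨v, hv, rfl⟩ i hi
    rw [Matrix.toLin'_apply, Matrix.mulVec, dotProduct]
    refine sum_eq_zero fun j _ => ?_
    by_cases hj : k.val ≤ compLabel μ j
    · rw [hv j hj, mul_zero]
    · rw [hg (show compLabel μ j < compLabel μ i by omega), zero_mul]
  · intro h i j hij
    have hj := compLabel_lt μ hμ j
    have := h ⟨compLabel μ j + 1, by omega⟩ (Submodule.mem_map_of_mem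
      (r := Pi.single j 1) (fun l hl => Pi.single_eq_of_ne (by rintro rfl; simp at hl) _)) i hij
    simpa [Matrix.toLin'_apply] using this

/-- The linear automorphism of an invertible matrix. -/
noncomputable def glLin (g : GL (Fin n) F) : (Fin n → F) ≃ₗ[F] (Fin n → F) :=
  (Matrix.GeneralLinearGroup.toLin g).toLinearEquiv

theorem glLin_coe (g : GL (Fin n) F) : (glLin g : (Fin n → F) →ₗ[F] (Fin n → F)) =
    Matrix.toLin' (g : Matrix (Fin n) (Fin n) F) := rfl

/-- The image of the standard flag. -/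
noncomputable def imFl (μ : Fin n → ℕ) (g : GL (Fin n) F) (k : Fin (n + 1)) :
    Submodule F (Fin n → F) :=
  (stdFl F μ k).map (Matrix.toLin' (g : Matrix (Fin n) (Fin n) F))

theorem imFl_mul (μ : Fin n → ℕ) (g h : GL (Fin n) F) (k : Fin (n + 1)) :
    imFl μ (g * h) k = (imFl μ h k).map (Matrix.toLin' (g : Matrix (Fin n) (Fin n) F)) := by
  rw [imFl, imFl, Units.val_mul, Matrix.toLin'_mul, Submodule.map_comp]

theorem finrank_map_gl (g : GL (Fin n) F) (W : Submodule F (Fin n → F)) :
    Module.finrank F (W.map (Matrix.toLin' (g : Matrix (Fin n) (Fin n) F))) =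
      Module.finrank F W := by
  rw [← glLin_coe, LinearEquiv.finrank_map_eq]

theorem imFl_eq_iff (μ : Fin n → ℕ) (hμ : ∑ j, μ j = n) (g h : GL (Fin n) F) :
    imFl μ g = imFl μ h ↔ g⁻¹ * h ∈ parabolicGL n F μ := by
  rw [mem_parabolic_iff μ hμ]
  have e1 : ∀ k, imFl μ (1 : GL (Fin n) F) k = stdFl F μ k := fun k => by simp [imFl]
  constructor
  · intro H k
    change imFl μ (g⁻¹ * h) k ≤ _
    rw [imFl_mul, ← H, ← imFl_mul, inv_mul_cancel, e1]
  · intro H
    funext k
    have : imFl μ (g⁻¹ * h) k = stdFl F μ k :=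
      Submodule.eq_of_le_of_finrank_eq (H k) (finrank_map_gl _ _)
    rw [← mul_inv_cancel_left g h, imFl_mul μ g, this]
    rfl

instance instFiniteAEvalPi [Finite F] (T : (Fin n → F) →ₗ[F] (Fin n → F)) :
    Finite (Module.AEval' T) :=
  Finite.of_equiv _ (Module.AEval'.of T).toEquiv

theorem card_fixedBy_parabolic [Finite F] (μ : Fin n → ℕ) (hμ : ∑ j, μ j = n) (x : GL (Fin n) F) :
    Nat.card (MulAction.fixedBy (GL (Fin n) F ⧸ parabolicGL n F μ) x) =
      Nat.card {Φ : Fin (n + 1) →
          Submodule F[X] (Module.AEval' (Matrix.toLin' (x : Matrix (Fin n) (Fin n) F))) //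
        (Φ 0 = ⊥ ∧ Φ (Fin.last n) = ⊤) ∧
          ∀ i : Fin n, Φ i.castSucc ≤ Φ i.succ ∧ sdim (Φ i.succ) = sdim (Φ i.castSucc) + μ i} := by
  set T := Matrix.toLin' (x : Matrix (Fin n) (Fin n) F) with hT
  let fl : GL (Fin n) F ⧸ parabolicGL n F μ → Fin (n + 1) → Submodule F (Fin n → F) :=
    Quotient.lift (imFl μ) fun a b h => (imFl_eq_iff μ hμ a b).2 (QuotientGroup.leftRel_apply.1 h)
  have hfl : Function.Injective fl := by
    intro a b
    induction a using QuotientGroup.induction_on
    induction b using QuotientGroup.induction_on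
    exact fun h => QuotientGroup.eq.2 ((imFl_eq_iff μ hμ _ _).1 h)
  let ms := Module.AEval.mapSubmodule F (Fin n → F) T
  have hdim : ∀ W : Submodule F[X] (Module.AEval' T),
      Module.finrank F (ms.symm W).1 = sdim W := fun _ => rfl
  have hdim' : ∀ (g : GL (Fin n) F) (k : Fin (n + 1)),
      Module.finrank F (imFl μ g k) = psum μ k := fun g k => by
    rw [imFl, finrank_map_gl, finrank_stdFl μ hμ k (by omega)]
  rw [← Nat.card_range_of_injective (hfl.comp Subtype.val_injective),
    ← Nat.card_range_of_injective (f := fun Φ : {Φ : Fin (n + 1) →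
          Submodule F[X] (Module.AEval' T) // (Φ 0 = ⊥ ∧ Φ (Fin.last n) = ⊤) ∧
          ∀ i : Fin n, Φ i.castSucc ≤ Φ i.succ ∧ sdim (Φ i.succ) = sdim (Φ i.castSucc) + μ i} =>
        fun k => (ms.symm (Φ.1 k)).1)
      (fun a b h => Subtype.ext (funext fun k => ms.symm.injective (Subtype.ext (congrFun h k))))]
  congr 2
  ext Ψ
  constructor
  · rintro ⟨⟨c, hc⟩, rfl⟩
    induction c using QuotientGroup.induction_on with
    | H g =>
    have h1 : imFl μ (x * g) = imFl μ g := congrArg fl hc
    have h2 : ∀ k, imFl μ g k ∈ (Algebra.lsmul F F (Fin n → F) T).invtSubmodule := by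
      intro k v hv
      have : T v ∈ imFl μ (x * g) k := by
        rw [imFl_mul]
        exact Submodule.mem_map_of_mem hv
      rw [h1] at this
      exact this
    have h3 : ∀ k, sdim (ms ⟨imFl μ g k, h2 k⟩) = psum μ k := fun k => by
      rw [← hdim, ms.symm_apply_apply, hdim']
    refine ⟨⟨fun k => ms ⟨imFl μ g k, h2 k⟩, ⟨?_, ?_⟩, fun i => ⟨?_, ?_⟩⟩, ?_⟩
    · symm
      apply eq_of_sdim bot_le
      rw [sdim_bot, h3]
      simp [psum]
    · apply eq_of_sdim le_top
      rw [h3, Fin.val_last, psum_top, hμ, ← hdim, map_top]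
      change n = Module.finrank F (⊤ : Submodule F (Fin n → F))
      simp
    · exact ms.monotone (Submodule.map_mono (stdFl_mono μ (by simp)))
    · rw [h3, h3, Fin.val_succ, psum_succ, Fin.val_castSucc]
    · funext k
      simp only [ms.symm_apply_apply]
      rfl
  · rintro ⟨⟨Φ, ⟨h0, -⟩, hΦ⟩, rfl⟩
    have hm : Monotone Φ := Fin.monotone_iff_le_succ.2 fun i => (hΦ i).1
    have hd : ∀ k : Fin (n + 1), sdim (Φ k) = psum μ k := by
      intro k
      induction k using Fin.induction with
      | zero => rw [h0, sdim_bot]; simp [psum]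
      | succ i ih => rw [(hΦ i).2, ih, Fin.val_succ, psum_succ, Fin.val_castSucc]
    obtain ⟨e, he⟩ := exists_flag_map (stdFl F μ)
      (fun k => (ms.symm (Φ ⟨min k n, by omega⟩)).1) (stdFl_mono μ)
      (fun k l hkl => ms.symm.monotone (hm (by simp only [Fin.mk_le_mk]; omega))) n
      (fun k hk => by
        rw [finrank_stdFl μ hμ k hk, hdim, hd]
        simp [hk])
    obtain ⟨g, hg⟩ := Matrix.GeneralLinearGroup.toLin.surjective
      (LinearMap.GeneralLinearGroup.ofLinearEquiv e)
    have hge : Matrix.toLin' (g : Matrix (Fin n) (Fin n) F) = e := by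
      rw [← glLin_coe, glLin, hg]
      rfl
    have h1 : imFl μ g = fun k => (ms.symm (Φ k)).1 := by
      funext k
      rw [imFl, hge, he k (by omega)]
      congr 3
      ext
      simp only
      omega
    refine ⟨⟨(g : GL (Fin n) F ⧸ parabolicGL n F μ), hfl ?_⟩, h1⟩
    change imFl μ (x * g) = imFl μ g
    funext k
    rw [imFl_mul]
    refine Submodule.eq_of_le_of_finrank_eq ?_ (finrank_map_gl _ _)
    rintro _ ⟨v, hv, rfl⟩
    rw [h1] at hv ⊢
    exact (ms.symm (Φ k)).2 hv

theorem unipotent_eq_hess [Fintype F] (x : GL (Fin n) F)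
    [Fintype (Submodule F[X] (Module.AEval' (Matrix.toLin' (x : Matrix (Fin n) (Fin n) F))))]
    [DecidableEq (Submodule F[X] (Module.AEval' (Matrix.toLin' (x : Matrix (Fin n) (Fin n) F))))] :
    unipotentCharacterGL n F (fun _ => 1) x =
      hessT (zet (F := F) (M := Module.AEval' (Matrix.toLin' (x : Matrix (Fin n) (Fin n) F)))) n 0
        ⊥ ⊤ := by
  classical
  rw [unipotentCharacterGL, hessT, Matrix.sum_apply]
  refine sum_congr rfl fun κ _ => ?_
  split_ifs with h
  · rw [← zsmul_eq_mul (List.prod _), Matrix.smul_apply, zsmul_eq_mul, ofFn_prod_apply, fixedPointCharacter,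
      card_fixedBy_parabolic _ (sum_shift_eq (fun _ => 1) (by simp) κ h), Nat.card_eq_fintype_card,
      Fintype.card_subtype, card_filter]
    congr 1
    push_cast
    refine sum_congr rfl fun Φ _ => ?_
    simp only [zet, ite_self, add_zero, prod_boole, mem_univ, true_imp_iff]
    rw [ite_and]
  · rfl

theorem mchi_aeval [Finite F] (T : (Fin n → F) →ₗ[F] (Fin n → F)) :
    mchi F (Module.AEval' T) = T.charpoly := by
  rw [mchi, ← LinearEquiv.charpoly_conj (Module.AEval'.of T)]
  congr 1
  ext m
  obtain ⟨v, rfl⟩ := (Module.AEval'.of T).surjective m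
  simp [LinearEquiv.conj_apply, xAct_apply, Module.AEval'.X_smul_of]

theorem neg_one_pow_mob [DecidableEq F] (q : ℕ) {g : F[X]} (hg : g.Monic) :
    (-1) ^ g.natDegree * mob q g = ∏ f ∈ (normalizedFactors g).toFinset,
      (-1 : ℂ) ^ ((f.natDegree - 1) * (normalizedFactors g).count f) *
        (q : ℂ) ^ (f.natDegree * (normalizedFactors g).count f *
          ((normalizedFactors g).count f - 1) / 2) := by
  have hd : g.natDegree = ∑ f ∈ (normalizedFactors g).toFinset,
      (normalizedFactors g).count f * f.natDegree := by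
    have h1 := natDegree_eq_of_degree_eq (degree_eq_degree_of_associated
      (prod_normalizedFactors hg.ne_zero))
    rw [← h1, natDegree_multiset_prod _ (zero_notMem_normalizedFactors g),
      Finset.sum_multiset_map_count]
    rfl
  rw [hd, mob, ← prod_pow_eq_pow_sum, ← prod_mul_distrib]
  refine prod_congr rfl fun f hf => ?_
  have hpos := (irreducible_of_normalized_factor f (Multiset.mem_toFinset.1 hf)).natDegree_pos
  generalize (normalizedFactors g).count f = m
  obtain ⟨d, hd⟩ := Nat.exists_eq_add_of_le' hpos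
  rw [← mul_assoc, mul_assoc f.natDegree,
    Nat.mul_div_assoc _ (Nat.even_mul_pred_self m).two_dvd, ← Nat.choose_two_right, hd,
    Nat.add_sub_cancel, ← pow_add, show m * (d + 1) + m = 2 * m + d * m by ring, pow_add, pow_mul]
  simp

end Cfsg.Agent.H6
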